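import Cfsg.Agent.H15Cusp.SC2

/-!
# The Brauer lift attached to a multiplicative function on a finite field (helper15)
-/

set_option autoImplicit false
set_option linter.style.haveILetI false
set_option linter.unusedSectionVars false

namespace Cfsg.Agent.H15C

open Module Submodule

universe u v

section defs

variable (F : Type v) [Field F] (K : Type v) [Field K] [Algebra F K]

open Classical in
/-- sum of the values of `θ` at the eigenvalues. -/
noncomputable def beta (θ : K → ℂ) : IF.{u, v} F := fun W _ _ φ =>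
  if _h : Module.Finite F W then
    (((LinearMap.charpoly φ).map (algebraMap F K)).roots.map θ).sum else 0

variable {F K}

theorem beta_eq (θ : K → ℂ) (W : Type u) [AddCommGroup W] [Module F W] [Module.Finite F W]
    (φ : Module.End F W) :
    beta F K θ W φ = (((LinearMap.charpoly φ).map (algebraMap F K)).roots.map θ).sum := by
  unfold beta
  rw [dif_pos (inferInstance : Module.Finite F W)]

theorem beta_invar (θ : K → ℂ) : Invar (beta.{u, v} F K θ) := by
  intro W W' _ _ _ _ e φ φ' h
  by_cases hf : Module.Finite F W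
  · haveI : Module.Finite F W' := Module.Finite.equiv e
    rw [beta_eq, beta_eq]
    have h1 : φ' = e.conj φ := by
      ext w
      rw [LinearEquiv.conj_apply_apply]
      rw [h, LinearEquiv.apply_symm_apply]
    rw [h1, LinearEquiv.charpoly_conj]
  · have hf' : ¬ Module.Finite F W' := fun h' => hf (Module.Finite.equiv e.symm)
    unfold beta
    rw [dif_neg hf, dif_neg hf']

/-- an exact sequence splits. -/
theorem exact_split {A V B : Type u} [AddCommGroup A] [Module F A] [AddCommGroup V] [Module F V]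
    [AddCommGroup B] [Module F B] [Finite A] [Finite B]
    (j : A →ₗ[F] V) (p : V →ₗ[F] B) (hj : Function.Injective j) (hp : Function.Surjective p)
    (hjp : ∀ v, p v = 0 ↔ ∃ a, j a = v) (x₁ : Module.End F A) (x : Module.End F V)
    (x₂ : Module.End F B) (h1 : ∀ a, x (j a) = j (x₁ a)) (h2 : ∀ v, p (x v) = x₂ (p v)) :
    ∃ (E : (B × A) ≃ₗ[F] V) (c₀ : B →ₗ[F] A), (∀ w, p (E w) = w.1) ∧
      (∀ a, E (0, a) = j a) ∧ ∀ w, E (upper x₂ x₁ c₀ w) = x (E w) := by
  obtain ⟨s, hs⟩ := LinearMap.exists_rightInverse_of_surjective p (LinearMap.range_eq_top.2 hp)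
  have hs' : ∀ b, p (s b) = b := fun b => LinearMap.congr_fun hs b
  have hpj : ∀ a, p (j a) = 0 := fun a => (hjp _).2 ⟨a, rfl⟩
  let e : (B × A) →ₗ[F] V := s.coprod j
  have he : Function.Bijective e := by
    constructor
    · rw [injective_iff_map_eq_zero]
      rintro ⟨b, a⟩ h
      have h' : s b + j a = 0 := h
      have hb : b = 0 := by
        have := congrArg p h'
        rw [map_add, hs', hpj, add_zero, map_zero] at this
        exact this
      rw [hb, map_zero, zero_add] at h'
      have ha : a = 0 := hj (h'.trans (map_zero j).symm)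
      rw [hb, ha]
      rfl
    · intro v
      have h3 : p (v - s (p v)) = 0 := by
        rw [map_sub, hs', sub_self]
      obtain ⟨a, ha⟩ := (hjp _).1 h3
      refine ⟨(p v, a), ?_⟩
      change s (p v) + j a = v
      rw [ha]
      abel
  let E : (B × A) ≃ₗ[F] V := LinearEquiv.ofBijective e he
  have hE : ∀ w : B × A, E w = s w.1 + j w.2 := fun w => rfl
  have hc0 : ∃ c₀ : B →ₗ[F] A, ∀ b, x (s b) = s (x₂ b) + j (c₀ b) := by
    let f : B →ₗ[F] V := x ∘ₗ s - s ∘ₗ x₂
    have hf : ∀ b, f b ∈ LinearMap.range j := by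
      intro b
      have h3 : p (f b) = 0 := by
        change p (x (s b) - s (x₂ b)) = 0
        rw [map_sub, h2, hs', hs', sub_self]
      exact (hjp _).1 h3
    let J : A ≃ₗ[F] LinearMap.range j := LinearEquiv.ofInjective j hj
    refine ⟨J.symm.toLinearMap ∘ₗ (f.codRestrict _ hf), fun b => ?_⟩
    have h4 : j (J.symm (f.codRestrict _ hf b)) = f b := by
      have := congrArg Subtype.val (J.apply_symm_apply (f.codRestrict _ hf b))
      exact this
    change x (s b) = s (x₂ b) + j (J.symm (f.codRestrict _ hf b))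
    rw [h4]
    change x (s b) = s (x₂ b) + (x (s b) - s (x₂ b))
    abel
  obtain ⟨c₀, hc₀⟩ := hc0
  refine ⟨E, c₀, ?_, ?_, ?_⟩
  · intro w
    rw [hE, map_add, hs', hpj, add_zero]
  · intro a
    rw [hE]
    simp
  · intro w
    rw [hE, hE, map_add x, hc₀, h1]
    change s (x₂ w.1) + j (x₁ w.2 + c₀ w.1) = _
    rw [map_add j]
    abel

theorem charpoly_upper {A B : Type u} [AddCommGroup A] [Module F A] [AddCommGroup B] [Module F B]
    [Module.Finite F A] [Module.Finite F B] (x₁ : Module.End F A) (x₂ : Module.End F B)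
    (c : B →ₗ[F] A) :
    (upper x₂ x₁ c).charpoly = x₂.charpoly * x₁.charpoly := by
  classical
  let b₁ := Module.Free.chooseBasis F A
  let b₂ := Module.Free.chooseBasis F B
  have h : LinearMap.toMatrix (b₂.prod b₁) (b₂.prod b₁) (upper x₂ x₁ c) =
      Matrix.fromBlocks (LinearMap.toMatrix b₂ b₂ x₂) 0 (LinearMap.toMatrix b₂ b₁ c)
        (LinearMap.toMatrix b₁ b₁ x₁) := by
    ext (i | i) (k | k) <;> simp [LinearMap.toMatrix_apply, upper]
  rw [← LinearMap.charpoly_toMatrix (upper x₂ x₁ c) (b₂.prod b₁), h,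
    Matrix.charpoly_fromBlocks_zero₁₂, LinearMap.charpoly_toMatrix, LinearMap.charpoly_toMatrix]

theorem beta_addi (θ : K → ℂ) : Addi (beta.{u, v} F K θ) := by
  intro A V B _ _ _ _ _ _ _ _ _ j p hj hp hjp x₁ x x₂ h1 h2
  obtain ⟨E, c₀, -, -, hE⟩ := exact_split j p hj hp hjp x₁ x x₂ h1 h2
  rw [← beta_invar θ _ _ E (upper x₂ x₁ c₀) x hE, beta_eq, beta_eq, beta_eq, charpoly_upper,
    Polynomial.map_mul, Polynomial.roots_mul, Multiset.map_add, Multiset.sum_add, add_comm]
  exact mul_ne_zero ((Polynomial.map_monic_ne_zero (LinearMap.charpoly_monic _)))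
    ((Polynomial.map_monic_ne_zero (LinearMap.charpoly_monic _)))

theorem beta_baseChange (θ : K → ℂ) (W : Type v) [AddCommGroup W] [Module F W] [Finite W]
    (φ : Module.End F W) :
    beta F K θ W φ = beta K K θ (TensorProduct F K W) (LinearMap.baseChange K φ) := by
  rw [beta_eq, beta_eq, LinearMap.charpoly_baseChange]
  simp

end defs

section Add

variable {F : Type v} [Field F]

/-- additivity on direct sums of two subspaces. -/
theorem Addi.sup {Φ : IF.{u, v} F} (hΦ : Invar Φ) (hadd : Addi Φ) {V : Type u} [AddCommGroup V]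
    [Module F V] [Finite V] (g : Module.End F V) (W₁ W₂ : Submodule F V)
    (h₁ : W₁ ∈ Module.End.invtSubmodule g) (h₂ : W₂ ∈ Module.End.invtSubmodule g)
    (h : W₁ ⊓ W₂ = ⊥) (W : Submodule F V) (hW : W = W₁ ⊔ W₂)
    (hWs : W ∈ Module.End.invtSubmodule g) :
    Φ W (g.restrict (p := W) (q := W) hWs) = Φ W₁ (g.restrict (p := W₁) (q := W₁) h₁) +
      Φ W₂ (g.restrict (p := W₂) (q := W₂) h₂) := by
  have hmem : ∀ w : W₁ × W₂, (w.1 : V) + w.2 ∈ W := by
    intro w
    rw [hW]
    exact Submodule.add_mem_sup w.1.2 w.2.2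
  let f : (W₁ × W₂) →ₗ[F] W := LinearMap.codRestrict W (W₁.subtype.coprod W₂.subtype) hmem
  have hf : Function.Bijective f := by
    constructor
    · rw [injective_iff_map_eq_zero]
      rintro ⟨a, b⟩ hab
      have h3 : (a : V) + b = 0 := congrArg Subtype.val hab
      have h4 : (a : V) ∈ W₁ ⊓ W₂ := by
        refine ⟨a.2, ?_⟩
        rw [eq_neg_of_add_eq_zero_left h3]
        exact W₂.neg_mem b.2
      rw [h, Submodule.mem_bot] at h4
      rw [h4, zero_add] at h3
      exact Prod.ext (Subtype.ext h4) (Subtype.ext h3)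
    · rintro ⟨w, hw⟩
      rw [hW, Submodule.mem_sup] at hw
      obtain ⟨a, ha, b, hb, rfl⟩ := hw
      exact ⟨(⟨a, ha⟩, ⟨b, hb⟩), rfl⟩
  let e : (W₁ × W₂) ≃ₗ[F] W := LinearEquiv.ofBijective f hf
  have h5 := hΦ (W₁ × W₂) W e
    (LinearMap.prodMap (g.restrict (p := W₁) (q := W₁) h₁) (g.restrict (p := W₂) (q := W₂) h₂))
    (g.restrict (p := W) (q := W) hWs) (by
      intro w
      apply Subtype.ext
      change g (w.1 : V) + g (w.2 : V) = g ((w.1 : V) + (w.2 : V))
      rw [map_add])
  rw [← h5]
  refine hadd W₁ (W₁ × W₂) W₂ (LinearMap.inl F W₁ W₂) (LinearMap.snd F W₁ W₂)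
    LinearMap.inl_injective LinearMap.snd_surjective ?_ _ _ _ ?_ ?_
  · intro v
    constructor
    · intro h0
      exact ⟨v.1, Prod.ext rfl (by simpa using h0.symm)⟩
    · rintro ⟨a, rfl⟩
      rfl
  · intro a
    simp
  · intro v
    rfl

open Classical in
/-- additivity on finite independent families. -/
theorem Addi.iSup {Φ : IF.{u, v} F} (hΦ : Invar Φ) (hadd : Addi Φ) {V : Type u} [AddCommGroup V]
    [Module F V] [Finite V] (g : Module.End F V) {ι : Type*} (U : ι → Submodule F V)
    (hU : ∀ i, U i ∈ Module.End.invtSubmodule g) (hind : iSupIndep U) (s : Finset ι)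
    (W : Submodule F V) (hW : W = s.sup U) (hWs : W ∈ Module.End.invtSubmodule g) :
    Φ W (g.restrict (p := W) (q := W) hWs) =
      ∑ i ∈ s, Φ (U i) (g.restrict (p := U i) (q := U i) (hU i)) := by
  induction s using Finset.induction_on generalizing W with
  | empty =>
    rw [Finset.sup_empty] at hW
    subst hW
    rw [Finset.sum_empty]
    exact hadd.zero _ _
  | insert i s hi ih =>
    rw [Finset.sup_insert] at hW
    rw [Finset.sum_insert hi]
    have hs : s.sup U ∈ Module.End.invtSubmodule g := by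
      intro v hv
      have h1 : s.sup U ≤ (s.sup U).comap g := by
        apply Finset.sup_le
        intro k hk w hw
        exact (Finset.le_sup (f := U) hk) (hU k hw)
      exact h1 hv
    rw [← ih (s.sup U) rfl hs]
    apply Addi.sup hΦ hadd g (U i) (s.sup U) (hU i) hs _ W hW hWs
    have h3 := hind i
    rw [← disjoint_iff]
    apply h3.mono_right
    apply Finset.sup_le
    intro k hk
    exact le_iSup₂_of_le k (fun h => hi (h ▸ hk)) le_rfl

/-- value at the whole space. -/
theorem Invar.top {Φ : IF.{u, v} F} (hΦ : Invar Φ) {V : Type u} [AddCommGroup V]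
    [Module F V] (g : Module.End F V) (W : Submodule F V) (hW : W = ⊤)
    (h : ∀ v ∈ W, g v ∈ W) :
    Φ W (g.restrict (p := W) (q := W) h) = Φ V g := by
  subst hW
  apply hΦ _ _ (Submodule.topEquiv)
  intro w
  rfl

end Add

section smul

variable {K : Type v} [Field K]

theorem charpoly_one_dim {W : Type u} [AddCommGroup W] [Module K W] [Module.Finite K W]
    (hW : finrank K W = 1) (c : K) :
    (c • (LinearMap.id : W →ₗ[K] W)).charpoly = Polynomial.X - Polynomial.C c := by
  classical
  let b := Module.finBasisOfFinrankEq K W hW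
  rw [← LinearMap.charpoly_toMatrix _ b, Matrix.charpoly, Matrix.det_unique,
    Matrix.charmatrix_apply]
  simp [LinearMap.toMatrix_apply]

theorem beta_one_dim (θ : K → ℂ) {W : Type u} [AddCommGroup W] [Module K W] [Finite W]
    [Module.Finite K W] (hW : finrank K W = 1) (c : K) :
    beta K K θ W (c • LinearMap.id) = θ c := by
  rw [beta_eq, charpoly_one_dim hW, Algebra.algebraMap_self, Polynomial.map_id,
    Polynomial.roots_X_sub_C]
  simp

open Polynomial in
theorem matrix_charpoly_smul {n : Type*} [Fintype n] [DecidableEq n] (M : Matrix n n K) (c : K)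
    (hc : c ≠ 0) : (c • M).charpoly = (M.charpoly).scaleRoots c := by
  have hinj : Function.Injective (fun p : K[X] => p.comp (C c * X)) := by
    intro p q hpq
    have h1 : (p.comp (C c * X)).comp (C c⁻¹ * X) = (q.comp (C c * X)).comp (C c⁻¹ * X) :=
      congrArg (fun r : K[X] => r.comp (C c⁻¹ * X)) hpq
    rw [comp_assoc, comp_assoc] at h1
    have h2 : (C c * X : K[X]).comp (C c⁻¹ * X) = X := by
      rw [mul_comp, C_comp, X_comp, ← mul_assoc, ← C_mul, mul_inv_cancel₀ hc, C_1, one_mul]
    rw [h2, comp_X, comp_X] at h1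
    exact h1
  apply hinj
  change (c • M).charpoly.comp (C c * X) = (M.charpoly.scaleRoots c).comp (C c * X)
  have h3 : (M.charpoly.scaleRoots c).comp (C c * X) =
      (C c) ^ M.charpoly.natDegree * M.charpoly := by
    have := scaleRoots_eval₂_mul (p := M.charpoly) (C : K →+* K[X]) X c
    rw [comp, this, ← comp, comp_X]
  rw [h3, Matrix.charpoly_natDegree_eq_dim, Matrix.charpoly, Matrix.charpoly]
  have h4 := RingHom.map_det (compRingHom (C c * X : K[X])) (Matrix.charmatrix (c • M))
  rw [coe_compRingHom_apply] at h4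
  rw [h4, ← Matrix.det_smul]
  congr 1
  ext1 i k
  rw [RingHom.mapMatrix_apply, Matrix.map_apply, Matrix.smul_apply, Matrix.charmatrix_apply,
    Matrix.charmatrix_apply, coe_compRingHom_apply]
  by_cases hik : i = k
  · subst hik
    simp
    ring
  · rw [Matrix.diagonal_apply_ne _ hik]
    simp

theorem beta_smul (θ : K → ℂ) (hθ : ∀ a b, θ (a * b) = θ a * θ b) {W : Type u} [AddCommGroup W]
    [Module K W] [Module.Finite K W] (φ : Module.End K W) (c : K) (hc : c ≠ 0) :
    beta K K θ W (c • φ) = θ c * beta K K θ W φ := by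
  classical
  rw [beta_eq, beta_eq, Algebra.algebraMap_self, Polynomial.map_id, Polynomial.map_id]
  let b := Module.Free.chooseBasis K W
  have h : (c • φ).charpoly = φ.charpoly.scaleRoots c := by
    rw [← LinearMap.charpoly_toMatrix _ b, ← LinearMap.charpoly_toMatrix φ b, map_smul,
      matrix_charpoly_smul _ _ hc]
  rw [h, Polynomial.roots_scaleRoots _ hc.isUnit, Multiset.map_map]
  simp only [Function.comp_def, hθ]
  rw [Multiset.sum_map_mul_left]

end smul

end Cfsg.Agent.H15C
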