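import Mathlib

/-!
# Endomorphisms with irreducible minimal polynomial (helper15)
-/

set_option autoImplicit false
set_option linter.style.haveILetI false
set_option linter.unusedSectionVars false

namespace Cfsg.Agent.H15C

open Module Submodule Polynomial

universe u v w

theorem exists_conj {F : Type v} [Field F] {L : Type w} [Field L] [Finite L] [Algebra F L]
    {V : Type u} [AddCommGroup V] [Module F V] [Module.Finite F V]
    (hdim : finrank F V = finrank F L) (g : Module.End F V) (hirr : Irreducible (minpoly F g)) :
    ∃ (t : L) (e : V ≃ₗ[F] L), ∀ v, e (g v) = t * e v := by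
  haveI : Fact (Irreducible (minpoly F g)) := ⟨hirr⟩
  let φ : AdjoinRoot (minpoly F g) →ₐ[F] Module.End F V :=
    Ideal.Quotient.liftₐ (Ideal.span {minpoly F g}) (aeval g) (by
      intro a ha
      rw [Ideal.mem_span_singleton] at ha
      obtain ⟨b, rfl⟩ := ha
      rw [map_mul, minpoly.aeval, zero_mul])
  have hφr : φ (AdjoinRoot.root (minpoly F g)) = g := by
    change aeval g (X : F[X]) = g
    exact aeval_X g
  letI : Module (AdjoinRoot (minpoly F g)) V := Module.compHom V φ.toRingHom
  have hsm : ∀ (x : AdjoinRoot (minpoly F g)) (v : V), x • v = φ x v := fun _ _ => rfl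
  haveI : IsScalarTower F (AdjoinRoot (minpoly F g)) V := by
    constructor
    intro c x v
    rw [hsm, hsm, map_smul]
    rfl
  haveI : Module.Finite F L := Module.Finite.of_finite
  have hdvd : finrank F (AdjoinRoot (minpoly F g)) ∣ finrank F L := by
    rw [← hdim]
    exact ⟨_, (Module.finrank_mul_finrank F (AdjoinRoot (minpoly F g)) V).symm⟩
  obtain ⟨ψ⟩ := FiniteField.nonempty_algHom_of_finrank_dvd hdvd
  letI : Module (AdjoinRoot (minpoly F g)) L := Module.compHom L ψ.toRingHom
  have hsm' : ∀ (x : AdjoinRoot (minpoly F g)) (v : L), x • v = ψ x * v := fun _ _ => rfl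
  haveI : IsScalarTower F (AdjoinRoot (minpoly F g)) L := by
    constructor
    intro c x v
    rw [hsm', hsm', map_smul, smul_mul_assoc]
  haveI : Module.Finite (AdjoinRoot (minpoly F g)) V :=
    Module.Finite.of_restrictScalars_finite F _ _
  haveI : Module.Finite (AdjoinRoot (minpoly F g)) L :=
    Module.Finite.of_restrictScalars_finite F _ _
  have hfin : finrank (AdjoinRoot (minpoly F g)) V = finrank (AdjoinRoot (minpoly F g)) L := by
    have h1 := Module.finrank_mul_finrank F (AdjoinRoot (minpoly F g)) V
    have h2 := Module.finrank_mul_finrank F (AdjoinRoot (minpoly F g)) L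
    rw [← hdim] at h2
    haveI : Module.Finite F (AdjoinRoot (minpoly F g)) :=
      (minpoly.monic (Algebra.IsIntegral.isIntegral g)).finite_adjoinRoot
    have h3 : 0 < finrank F (AdjoinRoot (minpoly F g)) := Module.finrank_pos
    exact Nat.eq_of_mul_eq_mul_left h3 (h1.trans h2.symm)
  let e := LinearEquiv.ofFinrankEq V L hfin
  refine ⟨ψ (AdjoinRoot.root (minpoly F g)), e.restrictScalars F, fun v => ?_⟩
  change e (g v) = ψ (AdjoinRoot.root (minpoly F g)) * e v
  rw [← hsm', ← map_smul, hsm, hφr]

end Cfsg.Agent.H15C
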