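import Cfsg.Agent.H15Cusp.Supp

/-!
# Evaluation of Moebius inverses over a subfield (helper15)
-/

set_option autoImplicit false
set_option linter.style.haveILetI false
set_option linter.unusedSectionVars false

namespace Cfsg.Agent.H15C

open Module Submodule Polynomial

universe u v

section lattice

variable {α : Type*} [PartialOrder α] [Fintype α] [OrderTop α]

open Classical in
/-- the Moebius coefficients. -/
noncomputable def cof (w : α) : ℂ := minv (fun y : α => if y = w then (1 : ℂ) else 0) ⊤

open Classical in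
theorem minv_top_eq (φ : α → ℂ) : minv φ ⊤ = ∑ w : α, φ w * cof w := by
  have h := minv_sum Finset.univ φ (fun w y : α => if y = w then (1 : ℂ) else 0) ⊤
  have h1 : (fun y => ∑ i : α, φ i * (if y = i then (1 : ℂ) else 0)) = φ := by
    funext y
    simp
  rw [h1] at h
  rw [h]
  rfl

theorem cof_top : cof (⊤ : α) = 1 := by
  classical
  unfold cof
  rw [← minv_unique (φ := fun y : α => if y = ⊤ then (1 : ℂ) else 0)
    (ψ := fun y : α => if y = ⊤ then (1 : ℂ) else 0)]
  · simp
  · intro x
    rw [Finset.sum_ite_eq' (Finset.univ.filter (· ≤ x)) ⊤ (fun _ => (1 : ℂ))]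
    by_cases hx : x = ⊤
    · simp [hx]
    · have : ¬ (⊤ : α) ≤ x := fun h => hx (top_le_iff.1 h)
      simp [hx, this]

end lattice

section vs

variable {M : Type v} [Field M] [Finite M] {Y : Type u} [AddCommGroup Y] [Module M Y] [Finite Y]

variable (M Y) in
/-- the Moebius polynomial of the lattice of subspaces. -/
noncomputable def PP : ℂ[X] :=
  ∑ W : Submodule M Y, C (cof W) * X ^ (finrank M W)

theorem PP_eval (z : ℂ) : (PP M Y).eval z = minv (fun W : Submodule M Y => z ^ finrank M W) ⊤ := by
  rw [minv_top_eq, PP, eval_finsetSum]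
  refine Finset.sum_congr rfl (fun W _ => ?_)
  rw [eval_mul, eval_C, eval_pow, eval_X, mul_comm]

theorem PP_deriv : (derivative (PP M Y)).eval 1 =
    minv (fun W : Submodule M Y => (finrank M W : ℂ)) ⊤ := by
  rw [minv_top_eq, PP, derivative_sum, eval_finsetSum]
  refine Finset.sum_congr rfl (fun W _ => ?_)
  rw [derivative_C_mul, derivative_X_pow, eval_mul, eval_mul, eval_C, eval_C, eval_pow, eval_X,
    one_pow, mul_one, mul_comm]

open Classical in
/-- the number of spanning tuples. -/
theorem PP_span (m : ℕ) : (PP M Y).eval ((Nat.card M : ℂ) ^ m) =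
    (Nat.card {f : Fin m → Y // Submodule.span M (Set.range f) = ⊤} : ℂ) := by
  haveI : Module.Finite M Y := Module.Finite.of_finite
  rw [PP_eval]
  symm
  apply minv_unique (ψ := fun W : Submodule M Y =>
    (Nat.card {f : Fin m → Y // Submodule.span M (Set.range f) = W} : ℂ))
  intro W
  haveI : Fintype (Fin m → Y) := Fintype.ofFinite _
  have h1 : Nat.card (Fin m → W) = ∑ y ∈ Finset.univ.filter (· ≤ W),
      Nat.card {f : Fin m → Y // Submodule.span M (Set.range f) = y} := by
    have h2 : Nat.card (Fin m → W) = (Finset.univ.filter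
        (fun f : Fin m → Y => Submodule.span M (Set.range f) ≤ W)).card := by
      rw [← Nat.card_eq_finsetCard]
      apply Nat.card_congr
      refine ⟨fun f => ⟨fun i => (f i : Y), ?_⟩, fun f => fun i => ⟨f.1 i, ?_⟩,
        fun f => rfl, fun f => rfl⟩
      · rw [Finset.mem_filter]
        refine ⟨Finset.mem_univ _, ?_⟩
        rw [Submodule.span_le]
        rintro _ ⟨i, rfl⟩
        exact (f i).2
      · have h3 := (Finset.mem_filter.1 f.2).2
        exact h3 (Submodule.subset_span ⟨i, rfl⟩)
    rw [h2, Finset.card_eq_sum_card_fiberwise (f := fun f : Fin m → Y =>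
      Submodule.span M (Set.range f)) (t := Finset.univ.filter (· ≤ W))]
    · refine Finset.sum_congr rfl (fun y hy => ?_)
      rw [Finset.mem_filter] at hy
      rw [← Nat.card_eq_finsetCard]
      apply Nat.card_congr
      apply Equiv.subtypeEquivRight
      intro f
      simp only [Finset.mem_filter, Finset.mem_univ, true_and]
      constructor
      · rintro ⟨-, h⟩
        exact h
      · intro h
        exact ⟨h ▸ hy.2, h⟩
    · intro f hf
      have := (Finset.mem_filter.1 hf).2
      exact Finset.mem_filter.2 ⟨Finset.mem_univ _, this⟩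
  rw [← Nat.cast_sum, ← h1, Nat.card_fun, Nat.card_fin, Module.natCard_eq_pow_finrank (K := M)
    (V := W)]
  push_cast
  rw [← pow_mul, ← pow_mul, mul_comm]

theorem PP_eq : PP M Y = ∏ i ∈ Finset.range (finrank M Y), (X - C ((Nat.card M : ℂ) ^ i)) := by
  classical
  haveI : Module.Finite M Y := Module.Finite.of_finite
  obtain ⟨N, hN⟩ : ∃ N : ℕ, N = finrank M Y := ⟨_, rfl⟩
  rw [← hN]
  have hQ : 1 < Nat.card M := Finite.one_lt_card
  have hinj : Function.Injective (fun i : ℕ => (Nat.card M : ℂ) ^ i) := by
    intro i j hij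
    have hij' : (Nat.card M : ℂ) ^ i = (Nat.card M : ℂ) ^ j := hij
    have h1 : (Nat.card M) ^ i = (Nat.card M) ^ j := by exact_mod_cast hij'
    exact Nat.pow_right_injective hQ h1
  have hmon : (∏ i ∈ Finset.range N, (X - C ((Nat.card M : ℂ) ^ i))).Monic :=
    monic_prod_of_monic _ _ (fun i _ => monic_X_sub_C _)
  have hdeg : (∏ i ∈ Finset.range N, (X - C ((Nat.card M : ℂ) ^ i))).degree = (N : WithBot ℕ) := by
    rw [degree_prod, Finset.sum_congr rfl (fun i _ => degree_X_sub_C _)]
    simp
  have hPdeg : (PP M Y - X ^ N).degree < (N : WithBot ℕ) := by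
    have h1 : PP M Y = X ^ N + ∑ W ∈ Finset.univ.erase (⊤ : Submodule M Y),
        C (cof W) * X ^ (finrank M W) := by
      rw [PP, ← Finset.add_sum_erase _ _ (Finset.mem_univ (⊤ : Submodule M Y)), cof_top, C_1,
        one_mul, finrank_top, hN]
    rw [h1, add_sub_cancel_left]
    refine lt_of_le_of_lt (degree_sum_le _ _) ?_
    rw [Finset.sup_lt_iff]
    · intro W hW
      have hW' : W ≠ ⊤ := Finset.ne_of_mem_erase hW
      refine lt_of_le_of_lt (degree_C_mul_X_pow_le _ _) ?_
      have h2 : finrank M W < N := hN ▸ Submodule.finrank_lt hW'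
      exact_mod_cast h2
    · exact WithBot.bot_lt_coe _
  refine Polynomial.eq_of_degree_sub_lt_of_eval_finset_eq
    ((Finset.range N).image (fun i : ℕ => (Nat.card M : ℂ) ^ i)) ?_ ?_
  · rw [Finset.card_image_of_injective _ hinj, Finset.card_range]
    have h3 : PP M Y - ∏ i ∈ Finset.range N, (X - C ((Nat.card M : ℂ) ^ i)) =
        (PP M Y - X ^ N) + (X ^ N - ∏ i ∈ Finset.range N, (X - C ((Nat.card M : ℂ) ^ i))) := by
      ring
    rw [h3]
    refine lt_of_le_of_lt (degree_add_le _ _) (max_lt hPdeg ?_)
    have h4 : (X ^ N : ℂ[X]).degree = (N : WithBot ℕ) := by simp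
    have h5 := degree_sub_lt_left (p := (X ^ N : ℂ[X]))
      (q := ∏ i ∈ Finset.range N, (X - C ((Nat.card M : ℂ) ^ i))) (by rw [h4, hdeg])
      (by simp) (by rw [(monic_X_pow N).leadingCoeff, hmon.leadingCoeff])
    rwa [h4] at h5
  · intro x hx
    rw [Finset.mem_image] at hx
    obtain ⟨i, hi, rfl⟩ := hx
    rw [Finset.mem_range] at hi
    rw [PP_span, eval_prod, Finset.prod_eq_zero (Finset.mem_range.2 hi) (by simp)]
    have : IsEmpty {f : Fin i → Y // Submodule.span M (Set.range f) = ⊤} := by
      constructor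
      rintro ⟨f, hf⟩
      have h6 := finrank_range_le_card (R := M) f
      rw [Set.finrank, hf, finrank_top, Fintype.card_fin] at h6
      omega
    rw [Nat.card_of_isEmpty]
    simp

/-- the number of surjective endomorphisms. -/
theorem PP_aut : (PP M Y).eval ((Nat.card M : ℂ) ^ finrank M Y) =
    (Nat.card {φ : Y →ₗ[M] Y // LinearMap.range φ = ⊤} : ℂ) := by
  haveI : Module.Finite M Y := Module.Finite.of_finite
  rw [PP_span]
  congr 1
  let b := Module.finBasis M Y
  apply Nat.card_congr
  refine (Equiv.subtypeEquiv (b.constr ℕ).toEquiv ?_)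
  intro f
  change _ ↔ LinearMap.range (b.constr ℕ f) = ⊤
  rw [Basis.constr_range]

end vs

end Cfsg.Agent.H15C
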