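import Cfsg.Agent.H15Cusp.Eval

/-!
# Evaluation of Moebius inverses at elements generating a field (helper15)
-/

set_option autoImplicit false
set_option linter.style.haveILetI false
set_option linter.unusedSectionVars false

namespace Cfsg.Agent.H15C

open Module Submodule Polynomial

universe u v

section ev

variable {F : Type v} [Field F] {M : Type v} [Field M] [Finite M] [Algebra F M]
  {Y : Type u} [AddCommGroup Y] [Module F Y] [Module M Y] [IsScalarTower F M Y] [Finite Y]

/-- the data: `g` acts as an element of `M` generating `M`. -/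
structure FieldLike (M : Type v) [Field M] [Algebra F M] [Module M Y] [IsScalarTower F M Y]
    (g : Module.End F Y) (τ : M) : Prop where
  act : ∀ y, g y = τ • y
  gen : ∀ c : M, ∃ f : F[X], ∀ y : Y, c • y = aeval g f y

variable {g : Module.End F Y} {τ : M} (h : FieldLike M g τ)

include h in
theorem FieldLike.restr (W : Submodule M Y) :
    W.restrictScalars F ∈ Module.End.invtSubmodule g := by
  intro v hv
  rw [Submodule.mem_comap, h.act]
  exact W.smul_mem τ hv

theorem FieldLike.MM_eq_minv (Φ : IF.{u, v} F) :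
    MM Φ g = minv (fun W : Submodule M Y => Φ (W.restrictScalars F)
      (g.restrict (p := W.restrictScalars F) (q := W.restrictScalars F) (h.restr W))) ⊤ := by
  let j : Submodule M Y → StabLat g := fun W => ⟨W.restrictScalars F, h.restr W⟩
  have h1 := minv_comp j (fun x y => Iff.rfl) (by
    intro x b _
    refine ⟨{ b.1 with smul_mem' := ?_ }, ?_⟩
    · intro c v hv
      obtain ⟨f, hf⟩ := h.gen c
      change c • v ∈ b.1
      rw [hf]
      exact aeval_stab g f b.1 b.2 v hv
    · rfl)
    (fun W : StabLat g => Φ W.1 (g.restrict (p := W.1) (q := W.1) W.2)) ⊤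
  exact h1.symm

include h in
theorem FieldLike.MM_dz_val : MM (dz F) g = (PP M Y).eval 0 := by
  haveI : Module.Finite M Y := Module.Finite.of_finite
  rw [h.MM_eq_minv, PP_eval]
  congr 1
  funext W
  unfold dz
  by_cases hW : finrank M W = 0
  · have hs : Subsingleton W := finrank_zero_iff.1 hW
    have hs' : Subsingleton (W.restrictScalars F) := hs
    rw [if_pos hs', hW, pow_zero]
  · have hs' : ¬ Subsingleton (W.restrictScalars F) := by
      intro hs
      have hs2 : Subsingleton W := hs
      exact hW finrank_zero_of_subsingleton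
    rw [if_neg hs', zero_pow hW]

theorem FieldLike.MM_val (Φ : IF.{u, v} F) (b : ℂ)
    (hb : ∀ W : Submodule M Y, Φ (W.restrictScalars F)
      (g.restrict (p := W.restrictScalars F) (q := W.restrictScalars F) (h.restr W)) =
      b * (finrank M W : ℂ)) :
    MM Φ g = b * (derivative (PP M Y)).eval 1 := by
  rw [h.MM_eq_minv, PP_deriv, ← minv_smul]
  congr 1
  funext W
  exact hb W

include h in
theorem FieldLike.cent :
    (Nat.card {x : (Module.End F Y)ˣ // (x : Module.End F Y) * g = g * x} : ℂ) =
      (PP M Y).eval ((Nat.card M : ℂ) ^ finrank M Y) := by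
  rw [PP_aut]
  congr 1
  have hcomm : ∀ x : Module.End F Y, x * g = g * x → ∀ (c : M) (y : Y), x (c • y) = c • x y := by
    intro x hx c y
    obtain ⟨f, hf⟩ := h.gen c
    rw [hf, hf]
    have h1 : Commute x (aeval g f) := by
      have h2 : Commute x g := hx
      rw [aeval_eq_sum_range]
      apply Commute.sum_right
      intro i _
      exact (h2.pow_right i).smul_right _
    exact LinearMap.congr_fun h1.eq y
  apply Nat.card_congr
  have hbij : ∀ φ : {φ : Y →ₗ[M] Y // LinearMap.range φ = ⊤}, Function.Bijective φ.1 := fun φ =>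
    ⟨Finite.injective_iff_surjective.2 (LinearMap.range_eq_top.1 φ.2),
      LinearMap.range_eq_top.1 φ.2⟩
  refine
    { toFun := fun x => ⟨{ toFun := fun y => (x.1 : Module.End F Y) y
                           map_add' := map_add _
                           map_smul' := hcomm x.1 x.2 }, ?_⟩
      invFun := fun φ => ⟨⟨φ.1.restrictScalars F,
        ((LinearEquiv.ofBijective φ.1 (hbij φ)).symm.toLinearMap).restrictScalars F, ?_, ?_⟩, ?_⟩
      left_inv := ?_
      right_inv := ?_ }
  · rw [LinearMap.range_eq_top]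
    intro y
    refine ⟨(↑(x.1)⁻¹ : Module.End F Y) y, ?_⟩
    change ((x.1 : Module.End F Y) * (↑(x.1)⁻¹ : Module.End F Y)) y = y
    rw [Units.mul_inv]
    rfl
  · ext y
    exact (LinearEquiv.ofBijective φ.1 (hbij φ)).apply_symm_apply y
  · ext y
    exact (LinearEquiv.ofBijective φ.1 (hbij φ)).symm_apply_apply y
  · ext y
    change φ.1 (g y) = g (φ.1 y)
    rw [h.act, h.act, map_smul]
  · intro x
    apply Subtype.ext
    apply Units.ext
    rfl
  · intro φ
    rfl

end ev

section ident

theorem deriv_val (Q : ℂ) (n : ℕ) :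
    (derivative (∏ i ∈ Finset.range (n + 1), (X - C (Q ^ i)))).eval 1 =
      ∏ i ∈ Finset.range n, (1 - Q ^ (i + 1)) := by
  rw [Finset.prod_range_succ', pow_zero, derivative_mul, derivative_sub, derivative_X,
    derivative_C]
  simp only [eval_add, eval_mul, eval_sub, eval_X, eval_C, sub_self, mul_zero, zero_add, sub_zero,
    mul_one]
  rw [eval_prod]
  refine Finset.prod_congr rfl (fun i _ => ?_)
  simp

theorem prod_ident (Q : ℂ) (n : ℕ) :
    -(∏ i ∈ Finset.range (n + 1), (0 - Q ^ i)) * (∏ i ∈ Finset.range n, (1 - Q ^ (i + 1))) *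
      (Q ^ (n + 1) - 1) = ∏ i ∈ Finset.range (n + 1), (Q ^ (n + 1) - Q ^ i) := by
  have h1 : ∏ i ∈ Finset.range (n + 1), (Q ^ (n + 1) - Q ^ i) =
      (∏ i ∈ Finset.range (n + 1), Q ^ i) * ∏ i ∈ Finset.range (n + 1), (Q ^ (i + 1) - 1) := by
    rw [← Finset.prod_range_reflect (fun i => Q ^ (i + 1) - 1), ← Finset.prod_mul_distrib]
    refine Finset.prod_congr rfl (fun i hi => ?_)
    rw [Finset.mem_range] at hi
    have h2 : n + 1 - 1 - i + 1 = n + 1 - i := by omega
    rw [h2, mul_sub, mul_one, ← pow_add]
    congr 2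
    omega
  have h3 : ∏ i ∈ Finset.range (n + 1), (0 - Q ^ i) =
      (-1) ^ (n + 1) * ∏ i ∈ Finset.range (n + 1), Q ^ i := by
    have h4 : ((-1 : ℂ)) ^ (n + 1) = ∏ i ∈ Finset.range (n + 1), (-1 : ℂ) := by simp
    rw [h4, ← Finset.prod_mul_distrib]
    refine Finset.prod_congr rfl (fun i _ => ?_)
    ring
  have h5 : ∏ i ∈ Finset.range n, (1 - Q ^ (i + 1)) =
      (-1) ^ n * ∏ i ∈ Finset.range n, (Q ^ (i + 1) - 1) := by
    have h4 : ((-1 : ℂ)) ^ n = ∏ i ∈ Finset.range n, (-1 : ℂ) := by simp
    rw [h4, ← Finset.prod_mul_distrib]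
    refine Finset.prod_congr rfl (fun i _ => ?_)
    ring
  rw [h1, h3, h5, Finset.prod_range_succ (fun i => Q ^ (i + 1) - 1)]
  have h6 : ((-1 : ℂ)) ^ (n + 1) * (-1) ^ n = -1 := by
    rw [pow_succ, mul_assoc, mul_comm (-1 : ℂ), ← mul_assoc, ← pow_add, ← two_mul, pow_mul]
    simp
  linear_combination (-(∏ i ∈ Finset.range (n + 1), Q ^ i) *
    (∏ i ∈ Finset.range n, (Q ^ (i + 1) - 1)) * (Q ^ (n + 1) - 1)) * h6

end ident

section fin

variable {F : Type v} [Field F] {M : Type v} [Field M] [Finite M] [Algebra F M]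
  {Y : Type u} [AddCommGroup Y] [Module F Y] [Module M Y] [IsScalarTower F M Y] [Finite Y]
  {g : Module.End F Y} {τ : M} (h : FieldLike M g τ)

include h in
/-- the product of the two values is the order of the centralizer. -/
theorem FieldLike.key (hY : Nontrivial Y) (Φ : IF.{u, v} F) (b : ℂ)
    (hb : ∀ W : Submodule M Y, Φ (W.restrictScalars F)
      (g.restrict (p := W.restrictScalars F) (q := W.restrictScalars F) (h.restr W)) =
      b * (finrank M W : ℂ)) :
    - MM (dz F) g * MM Φ g * ((Nat.card Y : ℂ) - 1) =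
      b * (Nat.card {x : (Module.End F Y)ˣ // (x : Module.End F Y) * g = g * x} : ℂ) := by
  haveI : Module.Finite M Y := Module.Finite.of_finite
  rw [h.MM_dz_val, h.MM_val Φ b hb, h.cent, PP_eq, Module.natCard_eq_pow_finrank (K := M) (V := Y)]
  have hpos : 0 < finrank M Y := Module.finrank_pos
  obtain ⟨n, hn⟩ : ∃ n, finrank M Y = n + 1 := ⟨finrank M Y - 1, by omega⟩
  rw [hn, deriv_val]
  have h1 := prod_ident (Nat.card M : ℂ) n
  rw [eval_prod, eval_prod]
  simp only [eval_sub, eval_X, eval_C]
  rw [← h1]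
  push_cast
  ring

include h in
theorem FieldLike.dz_real : (starRingEnd ℂ) (MM (dz F) g) = MM (dz F) g := by
  rw [h.MM_dz_val, PP_eq, eval_prod, map_prod]
  refine Finset.prod_congr rfl (fun i _ => ?_)
  simp

include h in
theorem FieldLike.val_ne (hY : Nontrivial Y) (Φ : IF.{u, v} F) (b : ℂ)
    (hb : ∀ W : Submodule M Y, Φ (W.restrictScalars F)
      (g.restrict (p := W.restrictScalars F) (q := W.restrictScalars F) (h.restr W)) =
      b * (finrank M W : ℂ)) :
    MM Φ g = b * ∏ i ∈ Finset.range (finrank M Y - 1), (1 - (Nat.card M : ℂ) ^ (i + 1)) := by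
  haveI : Module.Finite M Y := Module.Finite.of_finite
  have hpos : 0 < finrank M Y := Module.finrank_pos
  obtain ⟨n, hn⟩ : ∃ n, finrank M Y = n + 1 := ⟨finrank M Y - 1, by omega⟩
  rw [h.MM_val Φ b hb, PP_eq, hn, deriv_val, Nat.add_sub_cancel]

end fin

section scalar

variable {F : Type u} [Field F] {M : Type u} [Field M] [Finite M] [Algebra F M]

theorem phi_scalar {Φ : IF.{u, u} F} (hΦ : Invar Φ) (hadd : Addi Φ) (τ : M) (r : ℕ) :
    ∀ (X : Type u) [AddCommGroup X] [Module F X] [Module M X] [IsScalarTower F M X] [Finite X],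
    finrank M X = r → Φ X (Algebra.lsmul F F X τ) = Φ M (Algebra.lsmul F F M τ) * (r : ℂ) := by
  induction r with
  | zero =>
    intro X _ _ _ _ _ hr
    haveI : Module.Finite M X := Module.Finite.of_finite
    haveI : Subsingleton X := finrank_zero_iff.1 hr
    rw [hadd.zero]
    simp
  | succ r ih =>
    intro X _ _ _ _ _ hr
    haveI : Module.Finite M X := Module.Finite.of_finite
    have h1 : finrank M (M × (Fin r → M)) = finrank M X := by
      rw [hr]
      simp [add_comm]
    let e : (M × (Fin r → M)) ≃ₗ[M] X := LinearEquiv.ofFinrankEq _ _ h1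
    have h2 := hΦ (M × (Fin r → M)) X (e.restrictScalars F)
      (Algebra.lsmul F F (M × (Fin r → M)) τ) (Algebra.lsmul F F X τ) (by
        intro w
        change e (τ • w) = τ • e w
        rw [map_smul])
    rw [← h2]
    have h3 := hadd M (M × (Fin r → M)) (Fin r → M) (LinearMap.inl F M (Fin r → M))
      (LinearMap.snd F M (Fin r → M)) LinearMap.inl_injective LinearMap.snd_surjective (by
        intro v
        constructor
        · intro h0
          exact ⟨v.1, Prod.ext rfl (by simpa using h0.symm)⟩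
        · rintro ⟨a, rfl⟩
          rfl) (Algebra.lsmul F F M τ) (Algebra.lsmul F F (M × (Fin r → M)) τ)
        (Algebra.lsmul F F (Fin r → M) τ) (by
        intro a
        exact Prod.ext rfl (smul_zero τ)) (fun v => rfl)
    rw [h3, ih (Fin r → M) (by simp)]
    push_cast
    ring

end scalar

end Cfsg.Agent.H15C
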