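import Mathlib

/-!
# Field extensions and injective characters (helper15)
-/

set_option autoImplicit false
set_option linter.style.haveILetI false
set_option linter.unusedSectionVars false

namespace Cfsg.Agent.H15C

open Module Polynomial

universe u

/-- existence of extensions of a finite field. -/
theorem exists_ext (F : Type u) [Field F] [Finite F] (n : ℕ) (hn : n ≠ 0) :
    ∃ (L : Type u) (_ : Field L) (_ : Finite L) (_ : Algebra F L), finrank F L = n := by
  obtain ⟨p, hp⟩ := CharP.exists F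
  haveI : Fact p.Prime := ⟨CharP.char_is_prime F p⟩
  haveI : NeZero n := ⟨hn⟩
  refine ⟨ULift.{u} (FiniteField.Extension F p n), inferInstance, inferInstance, inferInstance, ?_⟩
  have h1 := FiniteField.finrank_extension F p n
  have h2 : Nat.card (ULift.{u} (FiniteField.Extension F p n)) = Nat.card F ^ n := by
    rw [← FiniteField.natCard_extension F p n]
    exact Nat.card_congr Equiv.ulift
  haveI : Module.Finite F (ULift.{u} (FiniteField.Extension F p n)) := Module.Finite.of_finite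
  rw [Module.natCard_eq_pow_finrank (K := F)] at h2
  exact Nat.pow_right_injective (Finite.one_lt_card : 2 ≤ Nat.card F) h2

/-- the tower used in the construction. -/
theorem exists_tower (F : Type u) [Field F] [Finite F] (p : ℕ) [Fact p.Prime] [CharP F p]
    (n : ℕ) (hn : n ≠ 0) (N : ℕ) (hN : N ≠ 0) :
    ∃ (L K : Type u) (_ : Field L) (_ : Finite L) (_ : Algebra F L) (_ : Field K) (_ : Finite K)
      (_ : Algebra F K) (_ : Algebra L K) (_ : IsScalarTower F L K), finrank F L = n ∧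
      ∀ m, m ∣ N → m.Coprime p → m ∣ Nat.card K - 1 := by
  obtain ⟨L, _, _, _, hL⟩ := exists_ext F n hn
  have hφ : 0 < Nat.totient N := Nat.totient_pos.2 (Nat.pos_of_ne_zero hN)
  obtain ⟨K, _, _, _, hK⟩ := exists_ext F (n * Nat.totient N) (Nat.mul_ne_zero hn hφ.ne')
  have hdvd : finrank F L ∣ finrank F K := by
    rw [hL, hK]
    exact dvd_mul_right _ _
  obtain ⟨φ⟩ := FiniteField.nonempty_algHom_of_finrank_dvd hdvd
  letI : Algebra L K := φ.toRingHom.toAlgebra
  haveI : IsScalarTower F L K := IsScalarTower.of_algebraMap_eq (fun x => (φ.commutes x).symm)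
  refine ⟨L, K, inferInstance, inferInstance, inferInstance, inferInstance, inferInstance,
    inferInstance, inferInstance, inferInstance, hL, ?_⟩
  intro m hm hmp
  haveI : Module.Finite F K := Module.Finite.of_finite
  have h1 : Nat.card K = Nat.card F ^ (n * Nat.totient N) := by
    rw [← hK]
    exact Module.natCard_eq_pow_finrank (K := F) (V := K)
  have h2 : (Nat.card F).Coprime m := by
    haveI : Fintype F := Fintype.ofFinite F
    obtain ⟨k, -, hk⟩ := FiniteField.card F p
    rw [Nat.card_eq_fintype_card, hk]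
    exact Nat.Coprime.pow_left _ hmp.symm
  obtain ⟨r, hr⟩ := Nat.totient_dvd_of_dvd hm
  have h3 : Nat.card K ≡ 1 [MOD m] := by
    have h4 : Nat.card K = (Nat.card F ^ (Nat.totient m)) ^ (n * r) := by
      rw [h1, hr, ← pow_mul]
      congr 1
      ring
    rw [h4]
    have h5 := (Nat.ModEq.pow_totient h2).pow (n * r)
    rwa [one_pow] at h5
  exact (Nat.modEq_iff_dvd' (Nat.card_pos)).1 h3.symm

section theta

variable {L K : Type u} [Field L] [Finite L] [Field K] [Finite K] [Algebra L K]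

/-- the extension of an injective character. -/
theorem exists_theta (x₀ : Lˣ) (hx₀ : ∀ x : Lˣ, x ∈ Subgroup.zpowers x₀) (ζ : ℂ)
    (hζ : IsPrimitiveRoot ζ (Nat.card Lˣ)) :
    ∃ θ : K →* ℂ, (∀ a, θ a = 1 → a = 1) ∧ θ (algebraMap L K (x₀ : L)) = ζ := by
  obtain ⟨y₀, hy₀⟩ := IsCyclic.exists_generator (α := Kˣ)
  set M := Nat.card Kˣ with hM
  set m := Nat.card Lˣ with hm
  have hM0 : M ≠ 0 := Nat.card_pos.ne'
  have hm0 : m ≠ 0 := Nat.card_pos.ne'
  haveI : NeZero M := ⟨hM0⟩
  haveI : NeZero m := ⟨hm0⟩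
  have hordy : orderOf y₀ = M := orderOf_eq_card_of_forall_mem_zpowers hy₀
  have hordx : orderOf x₀ = m := orderOf_eq_card_of_forall_mem_zpowers hx₀
  let ι : Lˣ →* Kˣ := Units.map (algebraMap L K : L →* K)
  have hι : Function.Injective ι := Units.map_injective (algebraMap L K).injective
  have hordx1 : orderOf (ι x₀) = m := by rw [orderOf_injective ι hι, hordx]
  obtain ⟨k, hk⟩ : ∃ k : ℕ, y₀ ^ k = ι x₀ := by
    have := hy₀ (ι x₀)
    rw [← mem_powers_iff_mem_zpowers] at this
    exact this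
  have hmM : m ∣ M := by
    rw [← hordx1, hM]
    exact orderOf_dvd_natCard _
  have hMk : M / M.gcd k = m := by
    rw [← hordx1, ← hk, (isOfFinOrder_of_finite y₀).orderOf_pow, hordy]
  have hξ₀ : IsPrimitiveRoot (Complex.exp (2 * Real.pi * Complex.I / M)) M :=
    Complex.isPrimitiveRoot_exp M hM0
  set ξ₀ : ℂ := Complex.exp (2 * Real.pi * Complex.I / M) with hξ₀d
  have hξk : IsPrimitiveRoot (ξ₀ ^ k) m := by
    have h1 : IsOfFinOrder ξ₀ := isOfFinOrder_iff_pow_eq_one.2
      ⟨M, Nat.pos_of_ne_zero hM0, hξ₀.pow_eq_one⟩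
    rw [IsPrimitiveRoot.iff_orderOf, h1.orderOf_pow, ← hξ₀.eq_orderOf, hMk]
  obtain ⟨i, -, hi, hiζ⟩ := hξk.isPrimitiveRoot_iff.1 hζ
  obtain ⟨u', hu'⟩ := ZMod.unitsMap_surjective hmM (ZMod.unitOfCoprime i hi)
  set j : ℕ := (u' : ZMod M).val with hj
  have hjM : j.Coprime M := ZMod.val_coe_unit_coprime u'
  have hji : j ≡ i [MOD m] := by
    rw [← ZMod.natCast_eq_natCast_iff]
    have h1 := congrArg Units.val hu'
    rw [ZMod.unitsMap_val, ZMod.coe_unitOfCoprime] at h1
    rw [← h1, hj, ZMod.natCast_val]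
  have hξj : IsPrimitiveRoot (ξ₀ ^ j) M := hξ₀.pow_of_coprime j hjM
  have hval : (ξ₀ ^ j) ^ k = ζ := by
    rw [← hiζ, ← pow_mul, mul_comm j k, pow_mul]
    rw [pow_eq_pow_mod j hξk.pow_eq_one, pow_eq_pow_mod i hξk.pow_eq_one, hji]
  let ξu : ℂˣ := (hξj.isUnit hM0).unit
  have hξu : (ξu : ℂ) = ξ₀ ^ j := IsUnit.unit_spec _
  have hordξ : orderOf ξu = orderOf y₀ := by
    rw [hordy, ← orderOf_units, hξu, ← hξj.eq_orderOf]
  let f : Kˣ →* ℂˣ := monoidHomOfForallMemZpowers hy₀ (g' := ξu) hordξ.dvd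
  have hf : f y₀ = ξu := monoidHomOfForallMemZpowers_apply_gen hy₀ hordξ.dvd
  have hfinj : ∀ a, f a = 1 → a = 1 := by
    intro a ha
    obtain ⟨r, rfl⟩ := hy₀ a
    change f (y₀ ^ r) = 1 at ha
    rw [map_zpow, hf] at ha
    change y₀ ^ r = 1
    rw [← orderOf_dvd_iff_zpow_eq_one] at ha ⊢
    rwa [hordξ] at ha
  refine ⟨(MulChar.ofUnitHom f).toMonoidHom, ?_, ?_⟩
  · intro a ha
    have ha' : MulChar.ofUnitHom f a = 1 := ha
    by_cases h0 : IsUnit a
    · obtain ⟨b, rfl⟩ := h0
      rw [MulChar.ofUnitHom_coe] at ha'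
      have h1 : f b = 1 := Units.ext ha'
      rw [hfinj b h1]
      rfl
    · rw [MulChar.map_nonunit _ h0] at ha'
      exact absurd ha' zero_ne_one
  · have h1 : algebraMap L K (x₀ : L) = ((ι x₀ : Kˣ) : K) := rfl
    change MulChar.ofUnitHom f (algebraMap L K (x₀ : L)) = ζ
    rw [h1, MulChar.ofUnitHom_coe, ← hk, map_pow, hf, Units.val_pow_eq_pow_val, hξu, hval]

end theta

end Cfsg.Agent.H15C
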