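import Cfsg.Agent.H15Cusp.Beta
import Cfsg.Agent.Char.BrauerInduction
import Cfsg.Agent.Char.BrauerLinear
import Cfsg.Agent.Char.Artin
import Cfsg.Agent.H4.GenChar

/-!
# Sums over fixed points are generalized characters (helper15)
-/

set_option autoImplicit false
set_option linter.style.haveILetI false
set_option linter.unusedSectionVars false

namespace Cfsg.Agent.H15C

open Cfsg Cfsg.Agent.CharBase Cfsg.Agent.Char Cfsg.Agent.Char.CC Cfsg.Agent.Char.BI

universe u w

open Classical in
/-- sum over an orbit versus sum over the group. -/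
theorem sum_orbit {G : Type w} [Group G] [Fintype G] {X : Type u} [Fintype X] [MulAction G X]
    (x₀ : X) (ψ : X → ℂ) :
    ∑ g : G, ψ (g • x₀) = (Nat.card (MulAction.stabilizer G x₀) : ℂ) *
      ∑ y ∈ Finset.univ.filter (fun y => y ∈ MulAction.orbit G x₀), ψ y := by
  rw [← Finset.sum_fiberwise_of_maps_to
    (s := Finset.univ) (t := Finset.univ.filter (fun y => y ∈ MulAction.orbit G x₀))
    (g := fun g : G => g • x₀)]
  · rw [Finset.mul_sum]
    refine Finset.sum_congr rfl (fun y hy => ?_)
    rw [Finset.mem_filter] at hy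
    obtain ⟨g₀, hg₀⟩ := hy.2
    have hg₀' : g₀ • x₀ = y := hg₀
    rw [Finset.sum_congr rfl (g := fun _ => ψ y)
      (fun g hg => by rw [(Finset.mem_filter.1 hg).2]), Finset.sum_const, nsmul_eq_mul]
    congr 2
    rw [Nat.card_eq_fintype_card, ← Finset.card_univ]
    symm
    refine Finset.card_bij (fun s _ => g₀ * (s : G)) ?_ ?_ ?_
    · intro s _
      rw [Finset.mem_filter]
      refine ⟨Finset.mem_univ _, ?_⟩
      rw [mul_smul, show (s : G) • x₀ = x₀ from s.2, hg₀']
    · intro s _ s' _ h
      exact Subtype.ext (mul_left_cancel h)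
    · intro g hg
      rw [Finset.mem_filter] at hg
      refine ⟨⟨g₀⁻¹ * g, ?_⟩, Finset.mem_univ _, by simp⟩
      rw [MulAction.mem_stabilizer_iff, mul_smul, hg.2, ← hg₀', inv_smul_smul]
  · intro g _
    rw [Finset.mem_filter]
    exact ⟨Finset.mem_univ _, MulAction.mem_orbit _ _⟩

open Classical in
/-- sums over fixed points of equivariant families of generalized characters. -/
theorem gc_fixsum {G : Type w} [Group G] [Fintype G] {X : Type u} [Fintype X] [MulAction G X]
    (f : X → G → ℂ)
    (hf : ∀ x, IsGeneralizedCharacter (MulAction.stabilizer G x) (fun h => f x h))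
    (hconj : ∀ x g h, h • x = x → f (g • x) (g * h * g⁻¹) = f x h) :
    IsGeneralizedCharacter G (fun h => ∑ x : X, if h • x = x then f x h else 0) := by
  -- one orbit
  have horb : ∀ x₀ : X, indFun (MulAction.stabilizer G x₀) (fun h => f x₀ h) =
      fun h => ∑ y ∈ Finset.univ.filter (fun y => y ∈ MulAction.orbit G x₀),
        if h • y = y then f y h else 0 := by
    intro x₀
    funext h
    unfold indFun
    have h1 : ∀ g : G, extendByZero (MulAction.stabilizer G x₀) (fun h => f x₀ h) (g⁻¹ * h * g) =
        (fun y => if h • y = y then f y h else 0) (g • x₀) := by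
      intro g
      by_cases hg : h • (g • x₀) = g • x₀
      · have h2 : g⁻¹ * h * g ∈ MulAction.stabilizer G x₀ := by
          rw [MulAction.mem_stabilizer_iff, mul_smul, mul_smul, hg, inv_smul_smul]
        rw [extendByZero_of_mem _ _ h2]
        have h3 := hconj x₀ g (g⁻¹ * h * g) h2
        have h4 : g * (g⁻¹ * h * g) * g⁻¹ = h := by group
        rw [h4] at h3
        change f x₀ (g⁻¹ * h * g) = if h • (g • x₀) = g • x₀ then f (g • x₀) h else 0
        rw [if_pos hg, h3]
      · have h2 : g⁻¹ * h * g ∉ MulAction.stabilizer G x₀ := by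
          intro h3
          apply hg
          rw [MulAction.mem_stabilizer_iff, mul_smul, mul_smul, inv_smul_eq_iff] at h3
          exact h3
        rw [extendByZero_of_notMem _ _ h2]
        change 0 = if h • (g • x₀) = g • x₀ then f (g • x₀) h else 0
        rw [if_neg hg]
    rw [Finset.sum_congr rfl (fun g _ => h1 g),
      sum_orbit x₀ (fun y => if h • y = y then f y h else 0), ← mul_assoc,
      inv_mul_cancel₀ (card_ne_zero_complex _), one_mul]
  have hsum : (fun h : G => ∑ x : X, if h • x = x then f x h else 0) =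
      ∑ ω : MulAction.orbitRel.Quotient G X,
        indFun (MulAction.stabilizer G (Quotient.out ω)) (fun h => f (Quotient.out ω) h) := by
    funext h
    rw [Finset.sum_apply]
    rw [← Finset.sum_fiberwise (s := Finset.univ)
      (g := fun x : X => (Quotient.mk'' x : MulAction.orbitRel.Quotient G X))]
    refine Finset.sum_congr rfl (fun ω _ => ?_)
    rw [horb]
    refine Finset.sum_congr ?_ (fun _ _ => rfl)
    ext y
    simp only [Finset.mem_filter, Finset.mem_univ, true_and]
    rw [← MulAction.orbitRel_apply, ← Quotient.eq'']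
    rw [Quotient.out_eq']
  rw [hsum]
  apply Cfsg.Agent.Char.AI.isGeneralizedCharacter_sum
  intro ω _
  exact isGeneralizedCharacter_indFun _ (hf _)

end Cfsg.Agent.H15C
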