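import Cfsg.Agent.H15Cusp.M3

/-!
# The Moebius inverse of the Brauer lift is a generalized character (helper15)
-/

set_option autoImplicit false
set_option linter.style.haveILetI false
set_option linter.unusedSectionVars false

namespace Cfsg.Agent.H15C

open Cfsg Cfsg.Agent.CharBase Cfsg.Agent.Char Cfsg.Agent.Char.CC Cfsg.Agent.Char.BI
open Module Submodule

universe u v w

variable {K : Type v} [Field K] [Finite K] (p : ℕ) [Fact p.Prime] [CharP K p]
  (θ : K →* ℂ) (hθ : ∀ a, θ a = 1 → a = 1) {F : Type v} [Field F] [Algebra F K]

include hθ in
theorem gc_MM (n : ℕ) : ∀ (N : Type w) [Group N] [Finite N],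
    (∀ m, m ∣ Nat.card N → m.Coprime p → m ∣ Nat.card K - 1) →
    ∀ (U : Type v) [AddCommGroup U] [Module F U] [Finite U], Nat.card U ≤ n →
    ∀ ρ : N →* Module.End F U, IsGeneralizedCharacter N (fun h => MM (beta F K θ) (ρ h)) := by
  classical
  induction n with
  | zero =>
    intro N _ _ _ U _ _ _ hc
    exact absurd hc (by have := Nat.card_pos (α := U); omega)
  | succ n ih =>
  intro N _ _ hgood U _ _ _ hcU ρ
  haveI := Fintype.ofFinite N
  have hInv : Invar (beta.{v, v} F K θ) := beta_invar θ
  have hAdd : Addi (beta.{v, v} F K θ) := beta_addi θ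
  have hinv : ∀ y : N, ∀ u, ρ y⁻¹ (ρ y u) = u := by
    intro y u
    rw [← Module.End.mul_apply, ← map_mul, inv_mul_cancel, map_one]
    rfl
  have hinj : ∀ y : N, Function.Injective (ρ y) := fun y =>
    Function.LeftInverse.injective (hinv y)
  letI : MulAction N (Submodule F U) :=
    { smul := fun y W => W.map (ρ y)
      one_smul := fun W => by
        change W.map (ρ 1) = W
        rw [map_one]
        exact Submodule.map_id W
      mul_smul := fun y z W => by
        change W.map (ρ (y * z)) = (W.map (ρ z)).map (ρ y)
        rw [map_mul]
        exact Submodule.map_comp _ _ _ }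
  have hsmul : ∀ (y : N) (W : Submodule F U), y • W = W.map (ρ y) := fun _ _ => rfl
  have hst1 : ∀ (y : N) (W : Submodule F U), y • W = W → W ∈ Module.End.invtSubmodule (ρ y) := by
    intro y W h v hv
    have h1 : ρ y v ∈ W.map (ρ y) := ⟨v, hv, rfl⟩
    rw [← hsmul, h] at h1
    exact h1
  have hst2 : ∀ (y : N) (W : Submodule F U), W ∈ Module.End.invtSubmodule (ρ y) → y • W = W := by
    intro y W h
    rw [hsmul]
    apply le_antisymm
    · rintro _ ⟨w, hw, rfl⟩
      exact h hw
    · intro w hw
      have h1 : Function.Injective ((ρ y).restrict (p := W) (q := W) h) := by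
        intro a b hab
        exact Subtype.ext (hinj y (congrArg Subtype.val hab))
      obtain ⟨w', hw'⟩ := Finite.surjective_of_injective h1 ⟨w, hw⟩
      exact ⟨w'.1, w'.2, congrArg Subtype.val hw'⟩
  have hfix := gc_fixsum (G := N) (X := Submodule F U)
    (fun W y => if W = ⊤ then 0 else mmS (beta F K θ) (ρ y) W)
    (by
      intro W
      by_cases hW : W = ⊤
      · simp only [hW, if_true]
        exact isGeneralizedCharacter_zero
      · simp only [hW, if_false]
        have hWm : Nat.card W ≤ n := by
          have h4 : (W : Set U) ≠ Set.univ := fun h => hW (Submodule.ext (fun w => by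
            rw [← SetLike.mem_coe, h]
            simp))
          have h5 := Set.ncard_lt_ncard (Set.ssubset_univ_iff.2 h4) (Set.toFinite _)
          rw [Set.ncard_univ] at h5
          have h6 : Nat.card W < Nat.card U := h5
          omega
        have hst : ∀ y : MulAction.stabilizer N W,
            W ∈ Module.End.invtSubmodule ((ρ.comp (MulAction.stabilizer N W).subtype) y) :=
          fun y => hst1 y W y.2
        have h2 := ih (MulAction.stabilizer N W)
          (fun m hm => hgood m (hm.trans (Subgroup.card_subgroup_dvd_card _))) W hWm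
          (resRep (ρ.comp (MulAction.stabilizer N W).subtype) W hst)
        have h3 : (fun h : MulAction.stabilizer N W => mmS (beta F K θ) (ρ (h : N)) W) =
            fun h => MM (beta F K θ)
              (resRep (ρ.comp (MulAction.stabilizer N W).subtype) W hst h) := by
          funext h
          exact mmS_of_mem _ (hst1 h W h.2)
        rw [h3]
        exact h2)
    (by
      intro W g h hh
      have h1 : g • W = ⊤ ↔ W = ⊤ := by
        rw [hsmul]
        constructor
        · intro h2
          have h3 : Submodule.comap (ρ g) (W.map (ρ g)) = W :=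
            Submodule.comap_map_eq_of_injective (hinj g) W
          rw [← h3, h2, Submodule.comap_top]
        · intro h2
          rw [h2, Submodule.map_top]
          exact LinearMap.range_eq_top.2 (Finite.surjective_of_injective (hinj g))
      by_cases hW : W = ⊤
      · rw [if_pos (h1.2 hW), if_pos hW]
      · rw [if_neg (fun h2 => hW (h1.1 h2)), if_neg hW, hsmul]
        apply mmS_map hInv (ρ g) (hinj g)
        intro v
        rw [← Module.End.mul_apply, ← map_mul, ← Module.End.mul_apply, ← map_mul]
        congr 2
        group)
  have hb := gc_beta p θ hθ hgood ρ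
  have hfin : (fun h => MM (beta F K θ) (ρ h)) = (fun h => beta F K θ U (ρ h)) +
      -(fun h => ∑ W : Submodule F U, if h • W = W then
        (if W = ⊤ then 0 else mmS (beta F K θ) (ρ h) W) else 0) := by
    funext y
    rw [MM_eq hInv]
    simp only [Pi.add_apply, Pi.neg_apply]
    rw [← sub_eq_add_neg]
    congr 1
    rw [Finset.sum_filter]
    refine Finset.sum_congr rfl (fun W _ => ?_)
    by_cases hW : W = ⊤
    · rw [if_neg (fun h => h hW), if_pos hW]
      simp
    · rw [if_pos hW, if_neg hW]
      by_cases hy : y • W = W
      · rw [if_pos hy]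
      · rw [if_neg hy]
        exact mmS_of_notMem _ (fun h => hy (hst2 y W h))
  rw [hfin]
  exact isGeneralizedCharacter_add hb (isGeneralizedCharacter_neg hfix)

end Cfsg.Agent.H15C
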