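import Cfsg.Agent.H15Cusp.Norm2
import Cfsg.Agent.H15Cusp.Ext
import Cfsg.Agent.H15Cusp.GCE
import Cfsg.Agent.Frob.Kernel

/-!
# Cuspidal characters of the general linear group (helper15)
-/

set_option autoImplicit false
set_option linter.style.haveILetI false
set_option linter.unusedSectionVars false

namespace Cfsg.Agent.H15C

open Module Submodule Polynomial
open scoped MatrixGroups ComplexConjugate
open Cfsg

universe u

variable {F : Type u} [Field F] [Finite F] (n : ℕ)

/-- the units of the matrix ring and of the endomorphism ring. -/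
noncomputable def psi (F : Type u) [Field F] (n : ℕ) :
    GL (Fin n) F ≃* (Module.End F (Fin n → F))ˣ :=
  Units.mapEquiv (Matrix.toLinAlgEquiv' (R := F) (n := Fin n)).toRingEquiv.toMulEquiv

theorem psi_apply (g : GL (Fin n) F) (v : Fin n → F) (i : Fin n) :
    ((psi F n g : (Module.End F (Fin n → F))ˣ) : Module.End F (Fin n → F)) v i =
      ∑ j, (g : Matrix (Fin n) (Fin n) F) i j * v j := rfl

variable {K : Type u} [Field K] [Finite K] [Algebra F K]

/-- the function on the general linear group. -/
noncomputable def EE (F : Type u) [Field F] [Finite F] (n : ℕ) {K : Type u} [Field K] [Finite K]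
    [Algebra F K] (θ : K →* ℂ) (g : GL (Fin n) F) : ℂ :=
  MM (beta F K θ) ((psi F n g : (Module.End F (Fin n → F))ˣ) : Module.End F (Fin n → F))

theorem EE_gc (p : ℕ) [Fact p.Prime] [CharP K p] (θ : K →* ℂ) (hθ : ∀ a, θ a = 1 → a = 1)
    (hgood : ∀ m, m ∣ Nat.card (GL (Fin n) F) → m.Coprime p → m ∣ Nat.card K - 1) :
    IsGeneralizedCharacter (GL (Fin n) F) (EE F n θ) := by
  exact gc_MM p θ hθ (Nat.card (Fin n → F)) (GL (Fin n) F) hgood (Fin n → F) le_rfl
    ((Units.coeHom (Module.End F (Fin n → F))).comp (psi F n).toMonoidHom)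

variable {L : Type u} [Field L] [Finite L] [Algebra F L] [Algebra L K] [IsScalarTower F L K]

theorem EE_inner (hL : finrank F L = n) (θ θ' : K →* ℂ) [Fintype (GL (Fin n) F)] :
    classInner (EE F n θ') (EE F n θ) = (cnt (L := L) F θ θ' : ℂ) := by
  classical
  haveI : Module.Finite F L := Module.Finite.of_finite
  haveI : Fintype (Module.End F L)ˣ := Fintype.ofFinite _
  let e : (Fin n → F) ≃ₗ[F] L := LinearEquiv.ofFinrankEq _ _ (by rw [hL]; simp)
  let E : (Module.End F (Fin n → F))ˣ ≃* (Module.End F L)ˣ :=
    Units.mapEquiv (e.conjAlgEquiv F).toRingEquiv.toMulEquiv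
  have h1 : ∀ g : GL (Fin n) F, EE F n θ' g * conj (EE F n θ g) =
      (fun x : (Module.End F L)ˣ => MM (beta F K θ') (x : Module.End F L) *
        conj (MM (beta F K θ) (x : Module.End F L))) (((psi F n).trans E) g) := by
    intro g
    have h2 : ∀ θ : K →* ℂ, EE F n θ g =
        MM (beta F K θ) ((((psi F n).trans E) g : (Module.End F L)ˣ) : Module.End F L) := by
      intro θ
      apply MM_congr (beta_invar θ) e
      intro v
      change e _ = e (((psi F n g : (Module.End F (Fin n → F))ˣ) : Module.End F (Fin n → F))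
        (e.symm (e v)))
      rw [LinearEquiv.symm_apply_apply]
    rw [h2 θ, h2 θ']
  have h5 : ∑ g : GL (Fin n) F, (fun x : (Module.End F L)ˣ => MM (beta F K θ')
      (x : Module.End F L) * conj (MM (beta F K θ) (x : Module.End F L)))
        (((psi F n).trans E) g) = ∑ x : (Module.End F L)ˣ, MM (beta F K θ')
      (x : Module.End F L) * conj (MM (beta F K θ) (x : Module.End F L)) :=
    Equiv.sum_comp ((psi F n).trans E).toEquiv
      (fun x : (Module.End F L)ˣ => MM (beta F K θ') (x : Module.End F L) *
        conj (MM (beta F K θ) (x : Module.End F L)))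
  unfold classInner
  rw [Finset.sum_congr rfl (fun g _ => h1 g), h5, inner_GL, Nat.card_congr
          ((psi F n).trans E).toEquiv, ← mul_assoc, inv_mul_cancel₀, one_mul]
  exact Nat.cast_ne_zero.2 Nat.card_pos.ne'

/-- the stabilized subspace of a standard maximal parabolic. -/
def Wm (F : Type u) [Field F] (n m : ℕ) : Submodule F (Fin n → F) where
  carrier := {v | ∀ j : Fin n, m ≤ j.val → v j = 0}
  zero_mem' := fun _ _ => rfl
  add_mem' := fun {a b} ha hb j hj => by
    rw [Pi.add_apply, ha j hj, hb j hj, add_zero]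
  smul_mem' := fun c a ha j hj => by
    rw [Pi.smul_apply, ha j hj, smul_zero]

open Classical in
theorem EE_cusp (θ : K →* ℂ) [Fintype (GL (Fin n) F)] (m : ℕ) (hm : 0 < m) (hmn : m < n) :
    (∑ g : GL (Fin n) F, if (∀ i j : Fin n, ¬ (i.val < m ∧ m ≤ j.val) →
      (g : Matrix (Fin n) (Fin n) F) i j = (1 : Matrix (Fin n) (Fin n) F) i j)
      then EE F n θ g else 0) = 0 := by
  set W := Wm F n m with hWd
  have hW0 : W ≠ ⊥ := by
    intro h
    have h1 : (Pi.single (⟨0, hm.trans hmn⟩ : Fin n) (1 : F) : Fin n → F) ∈ W := by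
      intro j hj
      rw [Pi.single_apply, if_neg]
      rintro rfl
      exact absurd hj (by simp; omega)
    rw [h, Submodule.mem_bot] at h1
    have h2 := congrFun h1 ⟨0, hm.trans hmn⟩
    rw [Pi.single_eq_same] at h2
    exact one_ne_zero h2
  have hW1 : W ≠ ⊤ := by
    intro h
    have h1 : (Pi.single (⟨m, hmn⟩ : Fin n) (1 : F) : Fin n → F) ∈ W := by
      rw [h]
      exact Submodule.mem_top
    have h2 := h1 ⟨m, hmn⟩ le_rfl
    rw [Pi.single_eq_same] at h2
    exact one_ne_zero h2
  have h1 := sum_mul_uu (beta_invar (F := F) (K := K) θ) (beta_addi (F := F) (K := K) θ) W hW0 hW1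
    1 (fun v hv => hv)
  rw [← Finset.sum_filter]
  rw [← h1]
  symm
  have hpsi : ∀ δ : ((Fin n → F) ⧸ W) →ₗ[F] W, psi F n ((psi F n).symm (1 * uu W δ)) = uu W δ := by
    intro δ
    rw [MulEquiv.apply_symm_apply, one_mul]
  refine Finset.sum_bij (fun δ _ => (psi F n).symm (1 * uu W δ)) ?_ ?_ ?_ ?_
  · intro δ _
    rw [Finset.mem_filter]
    refine ⟨Finset.mem_univ _, ?_⟩
    intro i j hij
    have h2 := psi_apply n ((psi F n).symm (1 * uu W δ)) (Pi.single j 1) i
    rw [hpsi, uu_apply] at h2
    have h3 : ∑ k, (((psi F n).symm (1 * uu W δ) : GL (Fin n) F) : Matrix (Fin n) (Fin n) F) i k *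
        (Pi.single j (1 : F) : Fin n → F) k =
        (((psi F n).symm (1 * uu W δ) : GL (Fin n) F) : Matrix (Fin n) (Fin n) F) i j := by
      rw [Finset.sum_eq_single j]
      · rw [Pi.single_eq_same, mul_one]
      · intro k _ hk
        rw [Pi.single_eq_of_ne hk, mul_zero]
      · intro h
        exact absurd (Finset.mem_univ j) h
    rw [h3] at h2
    rw [← h2, Pi.add_apply, Matrix.one_apply, Pi.single_apply]
    have h4 : ((δ (W.mkQ (Pi.single j (1 : F))) : W) : Fin n → F) i = 0 := by
      by_cases him : m ≤ i.val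
      · exact (δ (W.mkQ (Pi.single j (1 : F)))).2 i him
      · have hjm : j.val < m := by
          by_contra hge
          exact hij ⟨by omega, by omega⟩
        have h5 : (Pi.single j (1 : F) : Fin n → F) ∈ W := by
          intro k hk
          rw [Pi.single_apply, if_neg]
          rintro rfl
          omega
        rw [Submodule.mkQ_apply, (Submodule.Quotient.mk_eq_zero W).2 h5, map_zero]
        rfl
    rw [h4, add_zero]
  · intro δ _ δ' _ h
    have h2 := (psi F n).symm.injective h
    rw [one_mul, one_mul] at h2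
    apply Submodule.linearMap_qext
    have h3 := congrArg (fun x : (Module.End F (Fin n → F))ˣ => (x : Module.End F (Fin n → F))) h2
    apply LinearMap.ext
    intro v
    have h4 := LinearMap.congr_fun h3 v
    change v + (δ (W.mkQ v) : Fin n → F) = v + (δ' (W.mkQ v) : Fin n → F) at h4
    exact Subtype.ext (add_left_cancel h4)
  · intro g hg
    rw [Finset.mem_filter] at hg
    have hc := hg.2
    let D : Module.End F (Fin n → F) := ((psi F n g : (Module.End F (Fin n → F))ˣ) :
      Module.End F (Fin n → F)) - 1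
    have hD : ∀ v i, D v i = ∑ j, ((g : Matrix (Fin n) (Fin n) F) i j -
        (1 : Matrix (Fin n) (Fin n) F) i j) * v j := by
      intro v i
      change ((psi F n g : (Module.End F (Fin n → F))ˣ) : Module.End F (Fin n → F)) v i - v i = _
      rw [psi_apply]
      simp only [sub_mul, Finset.sum_sub_distrib, Matrix.one_apply, ite_mul, one_mul, zero_mul,
        Finset.sum_ite_eq, Finset.mem_univ, if_true]
    have hD1 : ∀ v, D v ∈ W := by
      intro v i hi
      rw [hD]
      apply Finset.sum_eq_zero
      intro j _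
      rw [hc i j (fun h => by omega), sub_self, zero_mul]
    have hD2 : W ≤ LinearMap.ker (D.codRestrict W hD1) := by
      intro v hv
      rw [LinearMap.mem_ker]
      apply Subtype.ext
      change D v = 0
      funext i
      rw [hD]
      apply Finset.sum_eq_zero
      intro j _
      by_cases hj : m ≤ j.val
      · rw [hv j hj, mul_zero]
      · rw [hc i j (fun h => hj h.2), sub_self, zero_mul]
    refine ⟨W.liftQ (D.codRestrict W hD1) hD2, Finset.mem_univ _, ?_⟩
    rw [MulEquiv.symm_apply_eq, one_mul]
    apply Units.ext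
    apply LinearMap.ext
    intro v
    rw [uu_apply]
    change v + D v = _
    change v + (((psi F n g : (Module.End F (Fin n → F))ˣ) : Module.End F (Fin n → F)) v - v) = _
    abel
  · intro δ _
    unfold EE
    rw [hpsi, one_mul]

theorem EE_one (hn : 2 ≤ n) (θ : K →* ℂ) : EE F n θ 1 =
    ∏ i ∈ Finset.range (n - 1), (1 - (Nat.card F : ℂ) ^ (i + 1)) := by
  haveI : Nonempty (Fin n) := ⟨⟨0, by omega⟩⟩
  have h0 : ((psi F n 1 : (Module.End F (Fin n → F))ˣ) : Module.End F (Fin n → F)) = 1 := by
    rw [map_one]
    rfl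
  unfold EE
  rw [h0]
  have hFL : FieldLike (F := F) F (1 : Module.End F (Fin n → F)) (1 : F) := by
    constructor
    · intro y
      rw [one_smul]
      rfl
    · intro c
      refine ⟨C c, fun y => ?_⟩
      rw [aeval_C]
      rfl
  have hb1 : beta F K θ F (Algebra.lsmul F F F (1 : F)) = 1 := by
    have h1 : (Algebra.lsmul F F F (1 : F) : F →ₗ[F] F) = (1 : F) • LinearMap.id := by
      ext
      simp
    rw [beta_eq, h1, charpoly_one_dim (Module.finrank_self F)]
    rw [Polynomial.map_sub, Polynomial.map_X, Polynomial.map_C, map_one,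
      Polynomial.roots_X_sub_C]
    simp
  have hb : ∀ W : Submodule F (Fin n → F), beta F K θ (W.restrictScalars F)
      ((1 : Module.End F (Fin n → F)).restrict (p := W.restrictScalars F)
      (q := W.restrictScalars F) (hFL.restr W)) = 1 * (finrank F W : ℂ) := by
    intro W
    have h1 := phi_scalar (beta_invar θ) (beta_addi (F := F) (K := K) θ) (1 : F)
      (finrank F W) (W.restrictScalars F) rfl
    rw [hb1] at h1
    rw [← h1]
    congr 1
    ext y
    simp
    rfl
  rw [hFL.val_ne inferInstance (beta F K θ) 1 hb, one_mul]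
  simp

end Cfsg.Agent.H15C
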