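import Cfsg.Agent.H15Cusp.Fix

/-!
# The Brauer lift is a generalized character (helper15)
-/

set_option autoImplicit false
set_option linter.style.haveILetI false
set_option linter.unusedSectionVars false

namespace Cfsg.Agent.H15C

open Cfsg Cfsg.Agent.CharBase Cfsg.Agent.Char Cfsg.Agent.Char.CC Cfsg.Agent.Char.BI
open Module Submodule
open scoped commutatorElement

universe u v w

section rv

variable {F : Type v} [Field F]

open Classical in
/-- the value at an invariant subspace. -/
noncomputable def rv (Φ : IF.{u, v} F) {V : Type u} [AddCommGroup V] [Module F V]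
    (g : Module.End F V) (W : Submodule F V) : ℂ :=
  if h : W ∈ Module.End.invtSubmodule g then Φ W (g.restrict (p := W) (q := W) h) else 0

theorem rv_of_mem (Φ : IF.{u, v} F) {V : Type u} [AddCommGroup V] [Module F V]
    {g : Module.End F V} {W : Submodule F V} (h : W ∈ Module.End.invtSubmodule g) :
    rv Φ g W = Φ W (g.restrict (p := W) (q := W) h) := by
  unfold rv
  rw [dif_pos h]

theorem rv_conj {Φ : IF.{u, v} F} (hΦ : Invar Φ) {V V' : Type u} [AddCommGroup V] [Module F V]
    [AddCommGroup V'] [Module F V']
    {g : Module.End F V} {g' : Module.End F V'} (W : Submodule F V) (W' : Submodule F V')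
    (hW : W ∈ Module.End.invtSubmodule g)
    (e : V →ₗ[F] V') (he : Function.Injective e) (h : ∀ v, e (g v) = g' (e v))
    (hW' : W.map e = W') : rv Φ g' W' = rv Φ g W := by
  have h1 : W' ∈ Module.End.invtSubmodule g' := by
    rw [← hW']
    rintro _ ⟨w, hw, rfl⟩
    exact ⟨g w, hW hw, h w⟩
  rw [rv_of_mem Φ hW, rv_of_mem Φ h1]
  symm
  subst hW'
  apply hΦ _ _ (Submodule.equivMapOfInjective e he W)
  intro w
  apply Subtype.ext
  exact h w.1

theorem rv_bot {Φ : IF.{u, v} F} (hadd : Addi Φ) {V : Type u} [AddCommGroup V] [Module F V]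
    (g : Module.End F V) (W : Submodule F V) (hW : W = ⊥) :
    rv Φ g W = 0 := by
  subst hW
  unfold rv
  split_ifs with h
  · exact hadd.zero _ _
  · rfl

end rv

section eig

variable {K : Type v} [Field K] [Finite K] (p : ℕ) [Fact p.Prime] [CharP K p]

/-- existence of an eigenvalue. -/
theorem exists_eig {U : Type u} [AddCommGroup U] [Module K U] [Finite U] [Nontrivial U]
    (g : Module.End K U) (N : ℕ) (hN : N ≠ 0) (hg : g ^ N = 1)
    (hgood : ∀ m, m ∣ N → m.Coprime p → m ∣ Nat.card K - 1) : ∃ c : K, g.HasEigenvalue c := by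
  haveI : Module.Finite K U := Module.Finite.of_finite
  obtain ⟨k, m, hm, hkm⟩ := Nat.exists_eq_pow_mul_and_not_dvd hN p (Fact.out : p.Prime).ne_one
  have hmd : m ∣ Nat.card K - 1 := hgood m ⟨p ^ k, by rw [hkm]; ring⟩
    ((Nat.Prime.coprime_iff_not_dvd Fact.out).2 hm).symm
  obtain ⟨r, hr⟩ := hmd
  have hK1 : 1 ≤ Nat.card K := Nat.card_pos
  have h1 : g ^ (p ^ k * (Nat.card K - 1)) = 1 := by
    rw [hr, ← mul_assoc, ← hkm, pow_mul, hg, one_pow]
  have h2 : Polynomial.aeval g ((Polynomial.X ^ Nat.card K - Polynomial.X : Polynomial K) ^ p ^ k)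
      = 0 := by
    rw [sub_pow_char_pow, map_sub, ← pow_mul, map_pow, map_pow, Polynomial.aeval_X]
    have h3 : Nat.card K * p ^ k = p ^ k * (Nat.card K - 1) + p ^ k := by
      obtain ⟨q, hq⟩ : ∃ q, Nat.card K = q + 1 := ⟨Nat.card K - 1, by omega⟩
      rw [hq, Nat.add_sub_cancel]
      ring
    rw [h3, pow_add, h1, one_mul, sub_self]
  have h4 := minpoly.dvd K g h2
  have h5 : ((Polynomial.X ^ Nat.card K - Polynomial.X : Polynomial K) ^ p ^ k).Splits :=
    (Polynomial.splits_X_pow_nat_card_sub_X).pow _
  have h6 : ((Polynomial.X ^ Nat.card K - Polynomial.X : Polynomial K) ^ p ^ k) ≠ 0 := by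
    apply pow_ne_zero
    have := FiniteField.X_pow_card_sub_X_ne_zero K (p := Nat.card K) Finite.one_lt_card
    exact this
  have h7 := h5.of_dvd h6 h4
  have h8 : (minpoly K g).degree ≠ 0 := (minpoly.degree_pos (Algebra.IsIntegral.isIntegral g)).ne'
  obtain ⟨c, hc⟩ := h7.exists_eval_eq_zero h8
  exact ⟨c, Module.End.hasEigenvalue_of_isRoot hc⟩

end eig

/-- restricting a representation to an invariant subspace. -/
def resRep {K : Type v} [Field K] {U : Type u} [AddCommGroup U] [Module K U] {N : Type w}
    [Group N] (ρ : N →* Module.End K U) (W : Submodule K U)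
    (hW : ∀ y : N, W ∈ Module.End.invtSubmodule (ρ y)) : N →* Module.End K W where
  toFun y := (ρ y).restrict (p := W) (q := W) (hW y)
  map_one' := by
    ext w
    simp
  map_mul' a b := by
    apply LinearMap.ext
    intro w
    apply Subtype.ext
    change ρ (a * b) w = ρ a (ρ b w)
    rw [map_mul]
    rfl

/-- the quotient representation. -/
def quoRep {K : Type v} [Field K] {U : Type u} [AddCommGroup U] [Module K U] {N : Type w}
    [Group N] (ρ : N →* Module.End K U) (W : Submodule K U)
    (hW : ∀ y : N, W ∈ Module.End.invtSubmodule (ρ y)) : N →* Module.End K (U ⧸ W) where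
  toFun y := W.mapQ W (ρ y) (hW y)
  map_one' := by
    ext w
    simp
  map_mul' a b := by
    apply Submodule.linearMap_qext
    apply LinearMap.ext
    intro w
    change W.mkQ (ρ (a * b) w) = W.mkQ (ρ a (ρ b w))
    rw [map_mul]
    rfl

section nil

variable {K : Type v} [Field K] [Finite K] (p : ℕ) [Fact p.Prime] [CharP K p]
  (θ : K →* ℂ) (hθ : ∀ a, θ a = 1 → a = 1)

include hθ in
theorem gc_nil (n : ℕ) : ∀ (N : Type w) [Group N] [Finite N], Group.IsNilpotent N →
    (∀ m, m ∣ Nat.card N → m.Coprime p → m ∣ Nat.card K - 1) → Nat.card N ≤ n →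
    ∀ (m : ℕ) (U : Type u) [AddCommGroup U] [Module K U] [Finite U], Nat.card U ≤ m →
    ∀ ρ : N →* Module.End K U, IsGeneralizedCharacter N (fun h => beta K K θ U (ρ h)) := by
  classical
  induction n with
  | zero =>
    intro N _ _ _ _ hc
    exact absurd hc (by have := Nat.card_pos (α := N); omega)
  | succ n ihn =>
  intro N _ _ hnil hgood hcN m
  haveI := Fintype.ofFinite N
  induction m with
  | zero =>
    intro U _ _ _ hc
    exact absurd hc (by have := Nat.card_pos (α := U); omega)
  | succ m ihm =>
  intro U _ _ _ hcU ρ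
  haveI : Module.Finite K U := Module.Finite.of_finite
  have hInv : Invar (beta.{u, v} K K θ) := beta_invar θ
  have hAdd : Addi (beta.{u, v} K K θ) := beta_addi θ
  by_cases hU : Subsingleton U
  · have : (fun h => beta K K θ U (ρ h)) = (0 : N → ℂ) := by
      funext h
      exact hAdd.zero U _
    rw [this]
    exact isGeneralizedCharacter_zero
  rw [not_subsingleton_iff_nontrivial] at hU
  -- the reducible case
  by_cases hred : ∃ W : Submodule K U, W ≠ ⊥ ∧ W ≠ ⊤ ∧
      ∀ y : N, W ∈ Module.End.invtSubmodule (ρ y)
  · obtain ⟨W, hW0, hW1, hW⟩ := hred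
    have hWm : Nat.card W ≤ m := by
      have h4 : (W : Set U) ≠ Set.univ := fun h => hW1 (Submodule.ext (fun w => by
        rw [← SetLike.mem_coe, h]
        simp))
      have h5 := Set.ncard_lt_ncard (Set.ssubset_univ_iff.2 h4) (Set.toFinite _)
      rw [Set.ncard_univ] at h5
      have h6 : Nat.card W < Nat.card U := h5
      omega
    have hQm : Nat.card (U ⧸ W) ≤ m := by
      have h6 : Nat.card U = Nat.card W * Nat.card (U ⧸ W) :=
        Submodule.card_eq_card_quotient_mul_card W
      have h7 : 1 < Nat.card W := by
        haveI := Submodule.nontrivial_iff_ne_bot.2 hW0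
        exact Finite.one_lt_card
      have h8 : 0 < Nat.card (U ⧸ W) := Nat.card_pos
      nlinarith
    have h1 := ihm W hWm (resRep ρ W hW)
    have h2 := ihm (U ⧸ W) hQm (quoRep ρ W hW)
    have h3 : (fun h => beta K K θ U (ρ h)) = (fun h => beta K K θ W (resRep ρ W hW h)) +
        (fun h => beta K K θ (U ⧸ W) (quoRep ρ W hW h)) := by
      funext h
      refine hAdd W U (U ⧸ W) W.subtype W.mkQ (Submodule.subtype_injective _)
        (Submodule.mkQ_surjective _) ?_ _ _ _ (fun a => rfl) (fun v => rfl)
      intro v
      rw [Submodule.mkQ_apply, Submodule.Quotient.mk_eq_zero]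
      constructor
      · intro h
        exact ⟨⟨v, h⟩, rfl⟩
      · rintro ⟨a, rfl⟩
        exact a.2
    rw [h3]
    exact isGeneralizedCharacter_add h1 h2
  have hirr : ∀ W : Submodule K U, (∀ y : N, W ∈ Module.End.invtSubmodule (ρ y)) →
      W = ⊥ ∨ W = ⊤ := by
    intro W hW
    by_contra hne
    push Not at hne
    exact hred ⟨W, hne.1, hne.2, hW⟩
  obtain ⟨u₀, hu₀⟩ := exists_ne (0 : U)
  -- the scalar case
  by_cases hsc : ∀ y : N, ∃ c : K, ρ y = c • LinearMap.id
  · choose c hc using hsc
    have hcm : ∀ y z, c (y * z) = c y * c z := by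
      intro y z
      have h1 : (c (y * z)) • u₀ = (c y * c z) • u₀ := by
        have h2 := LinearMap.congr_fun (hc (y * z)) u₀
        rw [map_mul, Module.End.mul_apply, hc y, hc z] at h2
        simp only [LinearMap.smul_apply, LinearMap.id_apply] at h2
        rw [← h2, mul_smul]
      exact smul_left_injective K hu₀ h1
    have hc1 : c 1 = 1 := by
      have h1 : (c 1) • u₀ = (1 : K) • u₀ := by
        have h2 := LinearMap.congr_fun (hc 1) u₀
        rw [map_one] at h2
        simp only [LinearMap.smul_apply, LinearMap.id_apply] at h2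
        rw [← h2, one_smul]
        rfl
      exact smul_left_injective K hu₀ h1
    have hdim : finrank K U = 1 := by
      have h1 : (K ∙ u₀) = ⊤ := by
        rcases hirr (K ∙ u₀) (by
          intro y v hv
          rw [Submodule.mem_comap, hc y]
          exact Submodule.smul_mem _ _ hv) with h | h
        · exact absurd (Submodule.span_singleton_eq_bot.1 h) hu₀
        · exact h
      exact finrank_eq_one_iff_of_nonzero _ hu₀ |>.2 h1
    let lam : N →* ℂ :=
      { toFun := fun y => θ (c y)
        map_one' := by rw [hc1, map_one]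
        map_mul' := fun y z => by rw [hcm, map_mul] }
    have h1 : (fun h => beta K K θ U (ρ h)) = (lam : N → ℂ) := by
      funext h
      rw [hc h, beta_one_dim θ hdim]
      rfl
    rw [h1]
    exact isGeneralizedCharacter_of_isCharacter (isCharacter_of_hom lam)
  -- the essential case
  push Not at hsc
  let Z : N → Prop := fun y => ∃ c : K, ρ y = c • LinearMap.id
  obtain ⟨a, haZ, haC⟩ : ∃ a : N, ¬ Z a ∧ ∀ y : N, Z ⁅a, y⁆ := by
    obtain ⟨k, hk⟩ := hnil.nilpotent'
    by_contra hno
    push Not at hno
    have h1 : ∀ i, ∀ x ∈ Subgroup.upperCentralSeries N i, Z x := by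
      intro i
      induction i with
      | zero =>
        intro x hx
        rw [Subgroup.upperCentralSeries_zero, Subgroup.mem_bot] at hx
        refine ⟨1, ?_⟩
        rw [hx, map_one, one_smul]
        rfl
      | succ i ih =>
        intro x hx
        rw [Subgroup.mem_upperCentralSeries_succ_iff] at hx
        by_contra hZ
        obtain ⟨y, hy⟩ := hno x hZ
        exact hy (ih _ (hx y))
    obtain ⟨y, hy⟩ := hsc
    obtain ⟨c, hc⟩ := h1 k y (by rw [hk]; exact Subgroup.mem_top y)
    exact hy c hc
  choose c hc using haC
  have hinv : ∀ y : N, ∀ u, ρ y⁻¹ (ρ y u) = u := by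
    intro y u
    rw [← Module.End.mul_apply, ← map_mul, inv_mul_cancel, map_one]
    rfl
  have hinj : ∀ y : N, Function.Injective (ρ y) := fun y =>
    Function.LeftInverse.injective (hinv y)
  have hcomm : ∀ (y : N) (u : U), ρ a (ρ y u) = c y • ρ y (ρ a u) := by
    intro y u
    have h1 : a * y = ⁅a, y⁆ * (y * a) := by
      rw [commutatorElement_def]
      group
    rw [← Module.End.mul_apply, ← map_mul, h1, map_mul, map_mul, hc y]
    rfl
  have hcm : ∀ y z, c (y * z) = c y * c z := by
    intro y z
    have h1 := hcomm (y * z) u₀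
    have h3 : ρ y (ρ z (ρ a u₀)) ≠ 0 := by
      intro h0
      apply hu₀
      apply hinj a
      apply hinj z
      apply hinj y
      rw [h0]
      simp
    rw [map_mul, Module.End.mul_apply, Module.End.mul_apply, hcomm y, hcomm z, map_smul,
      smul_smul] at h1
    exact (smul_left_injective K h3 h1).symm
  have hc1 : c 1 = 1 := by
    have h1 := hcomm 1 u₀
    rw [map_one] at h1
    have h3 : ρ a u₀ ≠ 0 := fun h0 => hu₀ (hinj a (by rw [h0]; simp))
    have h2 : (1 : K) • ρ a u₀ = c 1 • ρ a u₀ := by
      rw [one_smul]
      exact h1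
    exact (smul_left_injective K h3 h2).symm
  have hc0 : ∀ y, c y ≠ 0 := by
    intro y h0
    have h1 := hcm y y⁻¹
    rw [mul_inv_cancel, hc1, h0, zero_mul] at h1
    exact one_ne_zero h1
  let E : K → Submodule K U := fun μ => Module.End.eigenspace (ρ a) μ
  have hEmem : ∀ μ u, u ∈ E μ ↔ ρ a u = μ • u := fun μ u => Module.End.mem_eigenspace_iff
  have hmapE : ∀ (y : N) (μ : K), (E μ).map (ρ y) = E (c y * μ) := by
    intro y μ
    ext u
    constructor
    · rintro ⟨w, hw, rfl⟩
      rw [hEmem, hcomm]
      rw [SetLike.mem_coe, hEmem] at hw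
      rw [hw, map_smul, smul_smul]
    · intro hu
      rw [hEmem] at hu
      refine ⟨ρ y⁻¹ u, ?_, ?_⟩
      · rw [SetLike.mem_coe, hEmem, hcomm, hu, map_smul, smul_smul]
        congr 1
        have h1 := hcm y⁻¹ y
        rw [inv_mul_cancel, hc1] at h1
        rw [← mul_assoc, ← h1, one_mul]
      · have := hinv y⁻¹ u
        rw [inv_inv] at this
        exact this
  -- the action on the field
  letI : MulAction N K :=
    { smul := fun y μ => c y * μ
      one_smul := fun μ => by
        change c 1 * μ = μ
        rw [hc1, one_mul]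
      mul_smul := fun y z μ => by
        change c (y * z) * μ = c y * (c z * μ)
        rw [hcm, mul_assoc] }
  have hsmul : ∀ (y : N) (μ : K), y • μ = c y * μ := fun y μ => rfl
  have hstab : ∀ (y : N) (μ : K), y • μ = μ → E μ ∈ Module.End.invtSubmodule (ρ y) := by
    intro y μ h v hv
    have h1 : ρ y v ∈ (E μ).map (ρ y) := ⟨v, hv, rfl⟩
    rw [hmapE, ← hsmul, h] at h1
    exact h1
  haveI : Fintype K := Fintype.ofFinite K
  have hfull : ∀ μ : K, MulAction.stabilizer N μ = ⊤ → E μ = ⊥ := by
    intro μ hμ
    rcases hirr (E μ) (fun y => hstab y μ (by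
      have : y ∈ MulAction.stabilizer N μ := by rw [hμ]; exact Subgroup.mem_top y
      exact this)) with h | h
    · exact h
    · exfalso
      apply haZ
      refine ⟨μ, ?_⟩
      ext u
      have : u ∈ E μ := by rw [h]; exact Submodule.mem_top
      rw [hEmem] at this
      rw [this]
      rfl
  have hfix := gc_fixsum (G := N) (X := K) (fun μ y => rv (beta.{u, v} K K θ) (ρ y) (E μ))
    (by
      intro μ
      by_cases hμ : MulAction.stabilizer N μ = ⊤
      · have : (fun h : MulAction.stabilizer N μ =>
            rv (beta.{u, v} K K θ) (ρ (h : N)) (E μ)) = 0 := by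
          funext h
          exact rv_bot hAdd _ _ (hfull μ hμ)
        rw [this]
        exact isGeneralizedCharacter_zero
      · have hlt : Nat.card (MulAction.stabilizer N μ) ≤ n := by
          have h1 : Nat.card (MulAction.stabilizer N μ) < Nat.card N := by
            have h4 : ((MulAction.stabilizer N μ : Subgroup N) : Set N) ≠ Set.univ := fun h =>
              hμ (Subgroup.ext (fun w => by
                rw [← SetLike.mem_coe, h]
                simp))
            have h5 := Set.ncard_lt_ncard (Set.ssubset_univ_iff.2 h4) (Set.toFinite _)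
            rw [Set.ncard_univ] at h5
            exact h5
          omega
        have hst : ∀ y : MulAction.stabilizer N μ,
            E μ ∈ Module.End.invtSubmodule ((ρ.comp (MulAction.stabilizer N μ).subtype) y) :=
          fun y => hstab y μ y.2
        have h2 := ihn (MulAction.stabilizer N μ) (Subgroup.isNilpotent _)
          (fun m hm => hgood m (hm.trans (Subgroup.card_subgroup_dvd_card _))) hlt _ (E μ) le_rfl
          (resRep (ρ.comp (MulAction.stabilizer N μ).subtype) (E μ) hst)
        have h3 : (fun h : MulAction.stabilizer N μ =>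
            rv (beta.{u, v} K K θ) (ρ (h : N)) (E μ)) = fun h => beta K K θ (E μ)
              (resRep (ρ.comp (MulAction.stabilizer N μ).subtype) (E μ) hst h) := by
          funext h
          exact rv_of_mem _ (hstab h μ h.2)
        rw [h3]
        exact h2)
    (by
      intro μ g h hh
      apply rv_conj hInv (E μ) _ (hstab h μ hh) (ρ g) (hinj g)
      · intro v
        rw [← Module.End.mul_apply, ← map_mul, ← Module.End.mul_apply, ← map_mul]
        congr 2
        group
      · exact hmapE g μ)
  have hfin : (fun h => beta K K θ U (ρ h)) = (fun h => ∑ μ : K, if h • μ = μ then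
      rv (beta.{u, v} K K θ) (ρ h) (E μ) else 0) := by
    funext y
    by_cases hy : c y = 1
    · have h1 : ∀ μ : K, y • μ = μ := by
        intro μ
        rw [hsmul, hy, one_mul]
      have h2 : ∀ μ : K, E μ ∈ Module.End.invtSubmodule (ρ y) := fun μ => hstab y μ (h1 μ)
      have h3 : (⊤ : Submodule K U) = Finset.univ.sup E := by
        symm
        rcases hirr (Finset.univ.sup E) (by
          intro z v hv
          have h5 : (Finset.univ.sup E).map (ρ z) ≤ Finset.univ.sup E := by
            rw [Finset.sup_eq_iSup, Submodule.map_iSup]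
            apply iSup_le
            intro μ
            rw [Submodule.map_iSup]
            apply iSup_le
            intro hμ
            rw [hmapE]
            exact le_iSup₂_of_le (c z * μ) (Finset.mem_univ _) le_rfl
          exact h5 ⟨v, hv, rfl⟩) with h | h
        · exfalso
          obtain ⟨μ, hμ⟩ := exists_eig p (ρ a) (Nat.card N) Nat.card_pos.ne'
            (by rw [← map_pow, pow_card_eq_one', map_one]) hgood
          apply hμ
          have h6 : E μ ≤ Finset.univ.sup E := Finset.le_sup (Finset.mem_univ μ)
          rw [h] at h6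
          exact le_bot_iff.1 h6
        · exact h
      have h4 := Addi.iSup hInv hAdd (ρ y) E h2 (Module.End.eigenspaces_iSupIndep _) Finset.univ
        ⊤ h3 (fun _ _ => Submodule.mem_top)
      have h5 := hInv.top (ρ y) ⊤ rfl (fun _ _ => Submodule.mem_top)
      refine (h5.symm.trans h4).trans ?_
      refine Finset.sum_congr rfl (fun μ _ => ?_)
      rw [if_pos (h1 μ), rv_of_mem _ (h2 μ)]
    · rw [Finset.sum_eq_zero]
      · -- conjugate to a scalar multiple
        let e : U ≃ₗ[K] U := LinearEquiv.ofBijective (ρ a)
          ⟨hinj a, Finite.surjective_of_injective (hinj a)⟩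
        have h1 : beta K K θ U (ρ y) = beta K K θ U (c y • ρ y) := by
          apply hInv U U e
          intro u
          exact hcomm y u
        rw [beta_smul θ (fun a b => map_mul θ a b) (ρ y) (c y) (hc0 y)] at h1
        have h2 : (θ (c y) - 1) * beta K K θ U (ρ y) = 0 := by
          rw [sub_mul, one_mul, ← h1, sub_self]
        rcases mul_eq_zero.1 h2 with h3 | h3
        · exact absurd (hθ _ (sub_eq_zero.1 h3)) hy
        · exact h3
      · intro μ _
        split_ifs with h
        · apply rv_bot hAdd
          have hμ : μ = 0 := by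
            rw [hsmul] at h
            by_contra h0
            exact hy (mul_right_cancel₀ h0 (h.trans (one_mul μ).symm))
          apply hfull
          rw [eq_top_iff]
          intro z _
          rw [MulAction.mem_stabilizer_iff, hsmul, hμ, mul_zero]
        · rfl
  rw [hfin]
  exact hfix

include hθ in
/-- the Brauer lift is a generalized character. -/
theorem gc_beta_self {H : Type w} [Group H] [Finite H]
    (hgood : ∀ m, m ∣ Nat.card H → m.Coprime p → m ∣ Nat.card K - 1)
    {U : Type u} [AddCommGroup U] [Module K U] [Finite U] (ρ : H →* Module.End K U) :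
    IsGeneralizedCharacter H (fun h => beta K K θ U (ρ h)) := by
  haveI := Fintype.ofFinite H
  apply brauer_characterization
  · intro g h
    let e : U ≃ₗ[K] U :=
      { ρ h with
        invFun := ρ h⁻¹
        left_inv := fun u => by
          change (ρ h⁻¹ * ρ h) u = u
          rw [← map_mul, inv_mul_cancel, map_one]
          rfl
        right_inv := fun u => by
          change (ρ h * ρ h⁻¹) u = u
          rw [← map_mul, mul_inv_cancel, map_one]
          rfl }
    symm
    apply beta_invar θ U U e
    intro u
    change (ρ h * ρ g) u = (ρ (h * g * h⁻¹) * ρ h) u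
    rw [← map_mul, ← map_mul]
    congr 2
    group
  · intro E q hq hE
    exact gc_nil p θ hθ _ E (Cfsg.Agent.Char.BL.isNilpotent_of_isElementary hq hE)
      (fun m hm => hgood m (hm.trans (Subgroup.card_subgroup_dvd_card _))) le_rfl _ U le_rfl
      (ρ.comp E.subtype)

include hθ in
/-- the Brauer lift over a subfield is a generalized character. -/
theorem gc_beta {F : Type v} [Field F] [Algebra F K] {H : Type w} [Group H] [Finite H]
    (hgood : ∀ m, m ∣ Nat.card H → m.Coprime p → m ∣ Nat.card K - 1)
    {U : Type v} [AddCommGroup U] [Module F U] [Finite U] (ρ : H →* Module.End F U) :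
    IsGeneralizedCharacter H (fun h => beta F K θ U (ρ h)) := by
  haveI : Finite (TensorProduct F K U) := by
    haveI : Module.Finite F U := Module.Finite.of_finite
    haveI : Module.Finite K (TensorProduct F K U) := inferInstance
    exact Module.finite_of_finite K
  let ρ' : H →* Module.End K (TensorProduct F K U) :=
    { toFun := fun h => LinearMap.baseChange K (ρ h)
      map_one' := by
        rw [map_one]
        exact LinearMap.baseChange_id
      map_mul' := fun x y => by
        rw [map_mul]
        exact LinearMap.baseChange_comp (ρ y) (ρ x) }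
  have h1 := gc_beta_self p θ hθ hgood ρ'
  have h2 : (fun h => beta F K θ U (ρ h)) = fun h => beta K K θ (TensorProduct F K U) (ρ' h) := by
    funext h
    exact beta_baseChange θ U (ρ h)
  rw [h2]
  exact h1

end nil

end Cfsg.Agent.H15C
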