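import Cfsg.Agent.H15Cusp.SC2
import Cfsg.Agent.H15Cusp.M3

/-!
# Inner products with strongly cuspidal functions (helper15)
-/

set_option autoImplicit false
set_option linter.style.haveILetI false
set_option linter.unusedSectionVars false

namespace Cfsg.Agent.H15C

open Module Submodule
open scoped ComplexConjugate

universe u v

variable {F : Type v} [Field F] {V : Type u} [AddCommGroup V] [Module F V] [Finite V]

/-- the elements of the unipotent radical, as endomorphisms. -/
def uuE (W : Submodule F V) (δ : (V ⧸ W) →ₗ[F] W) : Module.End F V :=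
  W.subtype ∘ₗ δ ∘ₗ W.mkQ

theorem uuE_apply (W : Submodule F V) (δ : (V ⧸ W) →ₗ[F] W) (v : V) :
    uuE W δ v = (δ (W.mkQ v) : V) := rfl

theorem uuE_mem (W : Submodule F V) (δ : (V ⧸ W) →ₗ[F] W) (v : V) (hv : v ∈ W) :
    uuE W δ v = 0 := by
  rw [uuE_apply, Submodule.mkQ_apply, (Submodule.Quotient.mk_eq_zero W).2 hv, map_zero]
  rfl

theorem uuE_sq (W : Submodule F V) (δ : (V ⧸ W) →ₗ[F] W) : uuE W δ * uuE W δ = 0 := by
  ext v
  rw [Module.End.mul_apply]
  exact uuE_mem W δ _ (δ (W.mkQ v)).2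

/-- the elements of the unipotent radical. -/
def uu (W : Submodule F V) (δ : (V ⧸ W) →ₗ[F] W) : (Module.End F V)ˣ where
  val := 1 + uuE W δ
  inv := 1 - uuE W δ
  val_inv := by
    have := uuE_sq W δ
    rw [add_mul, one_mul, mul_sub, mul_one, this, sub_zero]
    abel
  inv_val := by
    have := uuE_sq W δ
    rw [sub_mul, one_mul, mul_add, mul_one, this, add_zero]
    abel

theorem uu_apply (W : Submodule F V) (δ : (V ⧸ W) →ₗ[F] W) (v : V) :
    (uu W δ : Module.End F V) v = v + (δ (W.mkQ v) : V) := rfl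

theorem uu_mem (W : Submodule F V) (δ : (V ⧸ W) →ₗ[F] W) (v : V) (hv : v ∈ W) :
    (uu W δ : Module.End F V) v = v := by
  rw [uu_apply, ← uuE_apply, uuE_mem W δ v hv, add_zero]

theorem mul_uu_mem (W : Submodule F V) (δ : (V ⧸ W) →ₗ[F] W) (g : (Module.End F V)ˣ)
    (v : V) (hv : v ∈ W) :
    ((g * uu W δ : (Module.End F V)ˣ) : Module.End F V) v = (g : Module.End F V) v := by
  rw [Units.val_mul, Module.End.mul_apply, uu_mem W δ v hv]

theorem mul_uu_stab (W : Submodule F V) (δ : (V ⧸ W) →ₗ[F] W) (g : (Module.End F V)ˣ) :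
    W ∈ Module.End.invtSubmodule ((g * uu W δ : (Module.End F V)ˣ) : Module.End F V) ↔
      W ∈ Module.End.invtSubmodule (g : Module.End F V) := by
  constructor
  · intro h v hv
    have := h hv
    rw [Submodule.mem_comap, mul_uu_mem W δ g v hv] at this
    exact this
  · intro h v hv
    rw [Submodule.mem_comap, mul_uu_mem W δ g v hv]
    exact h hv

theorem unit_inj (g : (Module.End F V)ˣ) : Function.Injective (g : Module.End F V) := by
  intro a b hab
  have h : ∀ v, (↑g⁻¹ : Module.End F V) ((g : Module.End F V) v) = v := by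
    intro v
    rw [← Module.End.mul_apply, Units.inv_mul]
    rfl
  rw [← h a, hab, h b]

theorem sum_mul_uu {Φ : IF.{u, v} F} (hΦ : Invar Φ) (hadd : Addi Φ) (W : Submodule F V)
    (hW : W ≠ ⊥) (hW' : W ≠ ⊤) (g : (Module.End F V)ˣ)
    (hg : W ∈ Module.End.invtSubmodule (g : Module.End F V)) :
    ∑ δ : (V ⧸ W) →ₗ[F] W,
      MM Φ ((g * uu W δ : (Module.End F V)ˣ) : Module.End F V) = 0 := by
  have hinj : Function.Injective ((g : Module.End F V).restrict (p := W) (q := W) hg) := by
    intro a b hab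
    exact Subtype.ext (unit_inj g (congrArg Subtype.val hab))
  let gW : W ≃ₗ[F] W := LinearEquiv.ofBijective ((g : Module.End F V).restrict (p := W) (q := W) hg)
    ⟨hinj, Finite.surjective_of_injective hinj⟩
  let e : ((V ⧸ W) →ₗ[F] W) ≃ ((V ⧸ W) →ₗ[F] W) :=
    { toFun := fun δ => gW.toLinearMap ∘ₗ δ
      invFun := fun δ => gW.symm.toLinearMap ∘ₗ δ
      left_inv := fun δ => by ext v; simp
      right_inv := fun δ => by ext v; simp }
  have h1 : ∀ δ : (V ⧸ W) →ₗ[F] W, MM Φ ((g * uu W δ : (Module.End F V)ˣ) : Module.End F V) =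
      (fun δ' => MM Φ ((g : Module.End F V) + W.subtype ∘ₗ δ' ∘ₗ W.mkQ)) (e δ) := by
    intro δ
    change MM Φ _ = MM Φ _
    congr 1
    ext v
    rw [Units.val_mul, Module.End.mul_apply, uu_apply, map_add]
    rfl
  rw [Finset.sum_congr rfl (fun δ _ => h1 δ), Equiv.sum_comp e
    (fun δ' => MM Φ ((g : Module.End F V) + W.subtype ∘ₗ δ' ∘ₗ W.mkQ))]
  exact sc_sub hΦ hadd W hW hW' _ hg

theorem ip_zero [Fintype (Module.End F V)ˣ] {Φ : IF.{u, v} F} (hΦ : Invar Φ) (hadd : Addi Φ)
    (W : Submodule F V) (hW : W ≠ ⊥) (hW' : W ≠ ⊤) (f : (Module.End F V)ˣ → ℂ)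
    (hf1 : ∀ g : (Module.End F V)ˣ, W ∉ Module.End.invtSubmodule (g : Module.End F V) → f g = 0)
    (hf2 : ∀ (g : (Module.End F V)ˣ) (δ : (V ⧸ W) →ₗ[F] W),
      W ∈ Module.End.invtSubmodule (g : Module.End F V) → f (g * uu W δ) = f g) :
    ∑ g : (Module.End F V)ˣ, f g * conj (MM Φ (g : Module.End F V)) = 0 := by
  have h1 : (Fintype.card ((V ⧸ W) →ₗ[F] W) : ℂ) *
      ∑ g : (Module.End F V)ˣ, f g * conj (MM Φ (g : Module.End F V)) = 0 := by
    have h2 : ∀ δ : (V ⧸ W) →ₗ[F] W,
        ∑ g : (Module.End F V)ˣ, f (g * uu W δ) * conj (MM Φ ((g * uu W δ : (Module.End F V)ˣ) :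
          Module.End F V)) =
        ∑ g : (Module.End F V)ˣ, f g * conj (MM Φ (g : Module.End F V)) := fun δ =>
      Equiv.sum_comp (Equiv.mulRight (uu W δ))
        (fun g : (Module.End F V)ˣ => f g * conj (MM Φ (g : Module.End F V)))
    rw [← nsmul_eq_mul, ← Finset.card_univ, ← Finset.sum_const,
      ← Finset.sum_congr rfl (fun δ _ => h2 δ), Finset.sum_comm]
    apply Finset.sum_eq_zero
    intro g _
    by_cases hg : W ∈ Module.End.invtSubmodule (g : Module.End F V)
    · rw [Finset.sum_congr rfl (fun δ _ => by rw [hf2 g δ hg]), ← Finset.mul_sum, ← map_sum,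
        sum_mul_uu hΦ hadd W hW hW' g hg, map_zero, mul_zero]
    · apply Finset.sum_eq_zero
      intro δ _
      rw [hf1 _ (fun h => hg ((mul_uu_stab W δ g).1 h)), zero_mul]
  rcases mul_eq_zero.1 h1 with h | h
  · exact absurd h (Nat.cast_ne_zero.2 Fintype.card_ne_zero)
  · exact h

theorem mmS_mul_uu (Φ : IF.{u, v} F) (W : Submodule F V) (δ : (V ⧸ W) →ₗ[F] W)
    (g : (Module.End F V)ˣ) :
    mmS Φ ((g * uu W δ : (Module.End F V)ˣ) : Module.End F V) W = mmS Φ (g : Module.End F V) W := by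
  by_cases hg : W ∈ Module.End.invtSubmodule (g : Module.End F V)
  · rw [mmS_of_mem Φ hg, mmS_of_mem Φ ((mul_uu_stab W δ g).2 hg)]
    congr 1
    ext w
    exact mul_uu_mem W δ g w w.2
  · rw [mmS_of_notMem Φ hg, mmS_of_notMem Φ (fun h => hg ((mul_uu_stab W δ g).1 h))]

theorem addi_mul_uu {Φ : IF.{u, v} F} (hadd : Addi Φ) (W : Submodule F V)
    (δ : (V ⧸ W) →ₗ[F] W) (g : (Module.End F V)ˣ)
    (hg : W ∈ Module.End.invtSubmodule (g : Module.End F V)) :
    Φ V ((g * uu W δ : (Module.End F V)ˣ) : Module.End F V) = Φ V (g : Module.End F V) := by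
  have hex : ∀ v : V, W.mkQ v = 0 ↔ ∃ a : W, W.subtype a = v := by
    intro v
    rw [Submodule.mkQ_apply, Submodule.Quotient.mk_eq_zero]
    constructor
    · intro h
      exact ⟨⟨v, h⟩, rfl⟩
    · rintro ⟨a, rfl⟩
      exact a.2
  rw [hadd W V (V ⧸ W) W.subtype W.mkQ (Submodule.subtype_injective _)
    (Submodule.mkQ_surjective _) hex ((g : Module.End F V).restrict (p := W) (q := W) hg) _
    (W.mapQ W (g : Module.End F V) hg) (fun a => mul_uu_mem W δ g a a.2) ?_,
    hadd W V (V ⧸ W) W.subtype W.mkQ (Submodule.subtype_injective _)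
    (Submodule.mkQ_surjective _) hex ((g : Module.End F V).restrict (p := W) (q := W) hg) _
    (W.mapQ W (g : Module.End F V) hg) (fun a => rfl) (fun v => rfl)]
  intro v
  rw [Units.val_mul, Module.End.mul_apply, uu_apply, map_add, map_add]
  have h1 : W.mkQ ((g : Module.End F V) (δ (W.mkQ v) : V)) = 0 := by
    rw [Submodule.mkQ_apply, Submodule.Quotient.mk_eq_zero]
    exact hg (δ (W.mkQ v)).2
  rw [h1, add_zero]
  rfl

variable (F) in
open Classical in
/-- the indicator of the zero space. -/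
noncomputable def dz : IF.{u, v} F := fun W _ _ _ => if Subsingleton W then 1 else 0

theorem dz_invar : Invar (dz.{u, v} F) := by
  intro W W' _ _ _ _ e φ φ' _
  unfold dz
  have h : Subsingleton W ↔ Subsingleton W' :=
    ⟨fun h => e.symm.injective.subsingleton, fun h => e.injective.subsingleton⟩
  by_cases hW : Subsingleton W
  · rw [if_pos hW, if_pos (h.1 hW)]
  · rw [if_neg hW, if_neg (fun h' => hW (h.2 h'))]

theorem mmS_dz_bot (g : Module.End F V) : mmS (dz F) g ⊥ = 1 := by
  rw [mmS_bot dz_invar, dz, if_pos (inferInstance : Subsingleton (⊥ : Submodule F V))]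

open Classical in
/-- the inner product formula. -/
theorem ip_main [Fintype (Module.End F V)ˣ] [Nontrivial V] {Φ Φ' : IF.{u, v} F} (hΦ : Invar Φ)
    (hadd : Addi Φ) (hΦ' : Invar Φ') (hadd' : Addi Φ') :
    ∑ g : (Module.End F V)ˣ, MM Φ' (g : Module.End F V) * conj (MM Φ (g : Module.End F V)) =
      - ∑ g : (Module.End F V)ˣ, Φ' V (g : Module.End F V) * MM (dz F) (g : Module.End F V) *
        conj (MM Φ (g : Module.End F V)) := by
  have hA : ∑ g : (Module.End F V)ˣ, MM Φ' (g : Module.End F V) *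
      conj (MM Φ (g : Module.End F V)) = ∑ g : (Module.End F V)ˣ, Φ' V (g : Module.End F V) *
        conj (MM Φ (g : Module.End F V)) := by
    rw [Finset.sum_congr rfl (fun g _ => by rw [MM_eq hΦ', sub_mul]), Finset.sum_sub_distrib]
    rw [sub_eq_self]
    rw [Finset.sum_congr rfl (fun g _ => Finset.sum_mul _ _ _), Finset.sum_comm]
    apply Finset.sum_eq_zero
    intro W hW
    by_cases hW0 : W = ⊥
    · apply Finset.sum_eq_zero
      intro g _
      rw [hW0, mmS_bot_zero hΦ' hadd', zero_mul]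
    · exact ip_zero hΦ hadd W hW0 (Finset.mem_filter.1 hW).2 _
        (fun g hg => mmS_of_notMem _ hg) (fun g δ _ => mmS_mul_uu _ W δ g)
  rw [hA, ← Finset.sum_neg_distrib]
  have hB : ∀ g : (Module.End F V)ˣ, MM (dz F) (g : Module.End F V) =
      -1 - ∑ W ∈ (Finset.univ.filter (fun W : Submodule F V => W ≠ ⊤)).filter (fun W => W ≠ ⊥),
        mmS (dz F) (g : Module.End F V) W := by
    intro g
    rw [MM_eq dz_invar]
    have h1 : dz F V (g : Module.End F V) = 0 := by
      rw [dz, if_neg (not_subsingleton V)]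
    rw [h1, ← Finset.sum_filter_add_sum_filter_not
      (Finset.univ.filter (fun W : Submodule F V => W ≠ ⊤)) (fun W => W ≠ ⊥)]
    have h2 : (Finset.univ.filter (fun W : Submodule F V => W ≠ ⊤)).filter
        (fun W => ¬ W ≠ ⊥) = {⊥} := by
      ext W
      simp only [Finset.mem_filter, Finset.mem_univ, true_and, Finset.mem_singleton, not_not]
      constructor
      · exact fun h => h.2
      · rintro rfl
        exact ⟨bot_ne_top, rfl⟩
    rw [h2, Finset.sum_singleton, mmS_dz_bot]
    ring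
  have hC : ∑ g : (Module.End F V)ˣ, ∑ W ∈ (Finset.univ.filter
      (fun W : Submodule F V => W ≠ ⊤)).filter (fun W => W ≠ ⊥),
      Φ' V (g : Module.End F V) * mmS (dz F) (g : Module.End F V) W *
        conj (MM Φ (g : Module.End F V)) = 0 := by
    rw [Finset.sum_comm]
    apply Finset.sum_eq_zero
    intro W hW
    rw [Finset.mem_filter, Finset.mem_filter] at hW
    refine ip_zero hΦ hadd W hW.2 hW.1.2
      (fun g => Φ' V (g : Module.End F V) * mmS (dz F) (g : Module.End F V) W) ?_ ?_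
    · intro g hg
      rw [mmS_of_notMem _ hg, mul_zero]
    · intro g δ hg
      rw [mmS_mul_uu, addi_mul_uu hadd' W δ g hg]
  have hD : ∀ g : (Module.End F V)ˣ, -(Φ' V (g : Module.End F V) *
      MM (dz F) (g : Module.End F V) * conj (MM Φ (g : Module.End F V))) =
      Φ' V (g : Module.End F V) * conj (MM Φ (g : Module.End F V)) +
      ∑ W ∈ (Finset.univ.filter (fun W : Submodule F V => W ≠ ⊤)).filter (fun W => W ≠ ⊥),
      Φ' V (g : Module.End F V) * mmS (dz F) (g : Module.End F V) W *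
        conj (MM Φ (g : Module.End F V)) := by
    intro g
    rw [hB g, ← Finset.sum_mul, ← Finset.mul_sum]
    ring
  rw [Finset.sum_congr rfl (fun g _ => hD g), Finset.sum_add_distrib, hC, add_zero]

end Cfsg.Agent.H15C
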