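import Cfsg.Agent.H15Cusp.Minv

/-!
# Moebius inversion over lattices of invariant subspaces (helper15)
-/

set_option autoImplicit false
set_option linter.style.haveILetI false
set_option linter.unusedSectionVars false

namespace Cfsg.Agent.H15C

open Module Submodule

universe u v

variable {F : Type v} [Field F]

/-- functions of pairs (space, endomorphism). -/
abbrev IF (F : Type v) [Field F] : Type (max (u + 1) v) :=
  ∀ (W : Type u) [AddCommGroup W] [Module F W], Module.End F W → ℂ

/-- invariance under isomorphisms. -/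
def Invar (Φ : IF.{u, v} F) : Prop :=
  ∀ (W W' : Type u) [AddCommGroup W] [Module F W] [AddCommGroup W'] [Module F W']
    (e : W ≃ₗ[F] W') (φ : Module.End F W) (φ' : Module.End F W'),
    (∀ w, e (φ w) = φ' (e w)) → Φ W φ = Φ W' φ'

variable {V V' : Type u} [AddCommGroup V] [Module F V] [Finite V] [AddCommGroup V'] [Module F V']
  [Finite V']

/-- the lattice of invariant subspaces. -/
abbrev StabLat (g : Module.End F V) : Type u := ↥(Module.End.invtSubmodule g)

theorem mem_stab {g : Module.End F V} {W : Submodule F V} :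
    W ∈ Module.End.invtSubmodule g ↔ ∀ v ∈ W, g v ∈ W := Iff.rfl

noncomputable instance instFintypeStabLat (g : Module.End F V) : Fintype (StabLat g) :=
  Fintype.ofFinite _

noncomputable instance instFintypeSubmodule : Fintype (Submodule F V) :=
  Fintype.ofFinite _

/-- Moebius inverse. -/
noncomputable def mm (Φ : IF.{u, v} F) (g : Module.End F V) : StabLat g → ℂ :=
  minv (fun W => Φ W.1 (g.restrict (p := W.1) (q := W.1) W.2))

/-- value at the top. -/
noncomputable def MM (Φ : IF.{u, v} F) (g : Module.End F V) : ℂ := mm Φ g ⊤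

/-- image of an invariant subspace. -/
def mapLat {g : Module.End F V} {g' : Module.End F V'} (j : V →ₗ[F] V')
    (h : ∀ v, j (g v) = g' (j v)) (W : StabLat g) : StabLat g' :=
  ⟨W.1.map j, by
    rintro _ ⟨v, hv, rfl⟩
    exact ⟨g v, W.2 hv, h v⟩⟩

theorem mm_map {Φ : IF.{u, v} F} (hΦ : Invar Φ) {g : Module.End F V} {g' : Module.End F V'}
    (j : V →ₗ[F] V') (hj : Function.Injective j) (h : ∀ v, j (g v) = g' (j v)) (W : StabLat g) :
    mm Φ g' (mapLat j h W) = mm Φ g W := by
  unfold mm
  rw [← minv_comp (mapLat j h) _ _ (fun W => Φ W.1 (g'.restrict (p := W.1) (q := W.1) W.2)) W]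
  · congr 1
    funext W
    symm
    apply hΦ _ _ (Submodule.equivMapOfInjective j hj W.1)
    intro w
    apply Subtype.ext
    exact h w.1
  · intro x y
    exact Submodule.map_le_map_iff_of_injective hj _ _
  · intro x b hb
    have hb' : b.1 ≤ x.1.map j := hb
    have hbr : b.1 ≤ LinearMap.range j := hb'.trans (LinearMap.map_le_range)
    refine ⟨⟨b.1.comap j, ?_⟩, ?_⟩
    · intro v hv
      change j (g v) ∈ b.1
      rw [h]
      exact b.2 hv
    · apply Subtype.ext
      change (b.1.comap j).map j = b.1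
      exact Submodule.map_comap_eq_of_le hbr

theorem mm_restrict {Φ : IF.{u, v} F} (hΦ : Invar Φ) {g : Module.End F V} (W : StabLat g) :
    mm Φ g W = MM Φ (g.restrict (p := W.1) (q := W.1) W.2) := by
  unfold MM
  rw [← mm_map hΦ (g := g.restrict (p := W.1) (q := W.1) W.2) (g' := g) W.1.subtype
    (Submodule.subtype_injective _) (fun v => rfl) ⊤]
  congr 1
  apply Subtype.ext
  change W.1 = (⊤ : Submodule F W.1).map W.1.subtype
  rw [Submodule.map_top, Submodule.range_subtype]

theorem MM_congr {Φ : IF.{u, v} F} (hΦ : Invar Φ) {g : Module.End F V} {g' : Module.End F V'}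
    (e : V ≃ₗ[F] V') (h : ∀ v, e (g v) = g' (e v)) : MM Φ g = MM Φ g' := by
  unfold MM
  rw [← mm_map hΦ (g := g) (g' := g') e.toLinearMap e.injective h ⊤]
  congr 1
  apply Subtype.ext
  change (⊤ : Submodule F V).map e.toLinearMap = ⊤
  rw [Submodule.map_top]
  exact e.range

theorem MM_of_mono {Φ : IF.{u, v} F} (hΦ : Invar Φ) {g : Module.End F V} {g' : Module.End F V'}
    (j : V →ₗ[F] V') (hj : Function.Injective j) (h : ∀ v, j (g v) = g' (j v))
    (C : StabLat g') (hC : (⊤ : Submodule F V).map j = C.1) : MM Φ g = mm Φ g' C := by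
  unfold MM
  rw [← mm_map hΦ (g := g) (g' := g') j hj h ⊤]
  congr 1
  exact Subtype.ext hC

open Classical in
/-- the value at a subspace, zero when not invariant. -/
noncomputable def mmS (Φ : IF.{u, v} F) (g : Module.End F V) (W : Submodule F V) : ℂ :=
  if h : W ∈ Module.End.invtSubmodule g then MM Φ (g.restrict (p := W) (q := W) h) else 0

theorem mmS_of_mem (Φ : IF.{u, v} F) {g : Module.End F V} {W : Submodule F V}
    (h : W ∈ Module.End.invtSubmodule g) :
    mmS Φ g W = MM Φ (g.restrict (p := W) (q := W) h) := by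
  unfold mmS
  rw [dif_pos h]

theorem mmS_of_notMem (Φ : IF.{u, v} F) {g : Module.End F V} {W : Submodule F V}
    (h : W ∉ Module.End.invtSubmodule g) : mmS Φ g W = 0 := by
  unfold mmS
  rw [dif_neg h]

open Classical in
theorem sum_stab (g : Module.End F V) (f : StabLat g → ℂ) (p : Submodule F V → Prop) :
    ∑ W ∈ Finset.univ.filter (fun W : StabLat g => p W.1), f W =
      ∑ W ∈ Finset.univ.filter (fun W : Submodule F V => p W),
        if h : W ∈ Module.End.invtSubmodule g then f ⟨W, h⟩ else 0 := by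
  symm
  rw [← Finset.sum_filter_add_sum_filter_not (Finset.univ.filter (fun W : Submodule F V => p W))
    (fun W => W ∈ Module.End.invtSubmodule g)]
  rw [Finset.sum_eq_zero (s := Finset.filter (fun W => W ∉ Module.End.invtSubmodule g) _)
    (fun W hW => by rw [dif_neg (Finset.mem_filter.1 hW).2]), add_zero]
  symm
  refine Finset.sum_bij (fun W _ => W.1) ?_ ?_ ?_ ?_
  · intro W hW
    rw [Finset.mem_filter] at hW
    rw [Finset.mem_filter, Finset.mem_filter]
    exact ⟨⟨Finset.mem_univ _, hW.2⟩, W.2⟩
  · intro W _ W' _ h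
    exact Subtype.ext h
  · intro W hW
    rw [Finset.mem_filter, Finset.mem_filter] at hW
    exact ⟨⟨W, hW.2⟩, Finset.mem_filter.2 ⟨Finset.mem_univ _, hW.1.2⟩, rfl⟩
  · intro W _
    rw [dif_pos W.2]

open Classical in
theorem MM_eq {Φ : IF.{u, v} F} (hΦ : Invar Φ) (g : Module.End F V) :
    MM Φ g = Φ V g - ∑ W ∈ Finset.univ.filter (fun W : Submodule F V => W ≠ ⊤), mmS Φ g W := by
  have h1 : MM Φ g = minv (fun W : StabLat g => Φ W.1 (g.restrict (p := W.1) (q := W.1) W.2)) ⊤ :=
    rfl
  rw [h1, minv_eq]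
  congr 1
  · apply hΦ _ _ (Submodule.topEquiv)
    intro w
    rfl
  · have h2 : (Finset.univ.filter (fun W : StabLat g => W < ⊤)) =
        Finset.univ.filter (fun W : StabLat g => W.1 ≠ ⊤) := by
      apply Finset.filter_congr
      intro W _
      rw [lt_top_iff_ne_top]
      constructor
      · intro h h'
        exact h (Subtype.ext h')
      · intro h h'
        exact h (congrArg Subtype.val h')
    rw [h2]
    have h3 : ∑ W ∈ Finset.univ.filter (fun W : Submodule F V => W ≠ ⊤), mmS Φ g W =
        ∑ W ∈ Finset.univ.filter (fun W : Submodule F V => W ≠ ⊤),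
        if h : W ∈ Module.End.invtSubmodule g then mm Φ g ⟨W, h⟩ else 0 := by
      apply Finset.sum_congr rfl
      intro W _
      by_cases h : W ∈ Module.End.invtSubmodule g
      · rw [dif_pos h, mmS_of_mem Φ h]
        exact (mm_restrict hΦ ⟨W, h⟩).symm
      · rw [dif_neg h, mmS_of_notMem Φ h]
    rw [h3]
    convert (sum_stab g (mm Φ g) (fun W => W ≠ ⊤)) using 1
    · apply Finset.sum_congr _ (fun _ _ => rfl)
      ext W
      simp
    · apply Finset.sum_congr _ (fun _ _ => rfl)
      ext W
      simp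

open Classical in
theorem sum_mmS {Φ : IF.{u, v} F} (hΦ : Invar Φ) (g : Module.End F V) :
    ∑ W : Submodule F V, mmS Φ g W = Φ V g := by
  have h1 := MM_eq hΦ g
  have h2 : mmS Φ g ⊤ = MM Φ g := by
    rw [mmS_of_mem Φ (show (⊤ : Submodule F V) ∈ Module.End.invtSubmodule g from
      fun _ _ => Submodule.mem_top)]
    apply MM_congr hΦ Submodule.topEquiv
    intro w
    rfl
  rw [← Finset.sum_filter_add_sum_filter_not Finset.univ (fun W : Submodule F V => W ≠ ⊤)]
  have h3 : Finset.univ.filter (fun W : Submodule F V => ¬ W ≠ ⊤) = {⊤} := by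
    ext W
    simp
  rw [h3, Finset.sum_singleton, h2, h1]
  ring

/-- value when a subspace maps isomorphically onto an invariant subspace of another space. -/
theorem mmS_of_mono {Φ : IF.{u, v} F} (hΦ : Invar Φ) {g : Module.End F V} {g' : Module.End F V'}
    (W : Submodule F V) (hW : W ∈ Module.End.invtSubmodule g)
    (j : V →ₗ[F] V') (hj : ∀ w ∈ W, j w = 0 → w = 0) (h : ∀ v ∈ W, j (g v) = g' (j v))
    (C : Submodule F V') (hC : W.map j = C) : mmS Φ g W = mmS Φ g' C := by
  have hCs : C ∈ Module.End.invtSubmodule g' := by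
    rw [mem_stab, ← hC]
    rintro _ ⟨w, hw, rfl⟩
    exact ⟨g w, hW hw, h w hw⟩
  rw [mmS_of_mem Φ hW, mmS_of_mem Φ hCs]
  have hinj : Function.Injective (j.domRestrict W) := by
    rw [injective_iff_map_eq_zero]
    intro w hw
    exact Subtype.ext (hj w.1 w.2 hw)
  have hmem : ∀ w : W, j.domRestrict W w ∈ C := by
    intro w
    rw [← hC]
    exact ⟨w.1, w.2, rfl⟩
  let e : W →ₗ[F] C := (j.domRestrict W).codRestrict C hmem
  have he : Function.Bijective e := by
    constructor
    · intro a b hab
      exact hinj (congrArg Subtype.val hab)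
    · rintro ⟨c, hc⟩
      rw [← hC] at hc
      obtain ⟨w, hw, rfl⟩ := hc
      exact ⟨⟨w, hw⟩, rfl⟩
  apply MM_congr hΦ (LinearEquiv.ofBijective e he)
  intro w
  apply Subtype.ext
  exact h w.1 w.2

end Cfsg.Agent.H15C
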