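import Cfsg.Agent.H15Cusp.GLn

/-!
# The number of cuspidal characters of the general linear group (helper15)
-/

set_option autoImplicit false
set_option linter.style.haveILetI false
set_option linter.unusedSectionVars false

namespace Cfsg.Agent.H15C

open Module Submodule Polynomial
open scoped MatrixGroups ComplexConjugate
open Cfsg Cfsg.Agent.Char.BI

universe u

variable {F : Type u} [Field F] [Finite F] (n : ℕ)

variable {K : Type u} [Field K] [Finite K] [Algebra F K]

/-- the character. -/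
noncomputable def DD (F : Type u) [Field F] [Finite F] (n : ℕ) {K : Type u} [Field K] [Finite K]
    [Algebra F K] (θ : K →* ℂ) (g : GL (Fin n) F) : ℂ := (-1) ^ (n - 1) * EE F n θ g

variable {L : Type u} [Field L] [Finite L] [Algebra F L] [Algebra L K] [IsScalarTower F L K]

theorem DD_one (hn : 2 ≤ n) (θ : K →* ℂ) : DD F n θ 1 =
    ∏ i ∈ Finset.Ico 1 n, ((Nat.card F : ℂ) ^ i - 1) := by
  unfold DD
  rw [EE_one n hn, Finset.prod_Ico_eq_prod_range]
  have h4 : ((-1 : ℂ)) ^ (n - 1) = ∏ i ∈ Finset.range (n - 1), (-1 : ℂ) := by simp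
  rw [h4, ← Finset.prod_mul_distrib]
  refine Finset.prod_congr rfl (fun i _ => ?_)
  rw [add_comm 1 i]
  ring

theorem DD_inner (hL : finrank F L = n) (θ θ' : K →* ℂ) [Fintype (GL (Fin n) F)] :
    classInner (DD F n θ') (DD F n θ) = (cnt (L := L) F θ θ' : ℂ) := by
  rw [← EE_inner n hL θ θ']
  unfold classInner
  congr 1
  refine Finset.sum_congr rfl (fun g _ => ?_)
  unfold DD
  rw [map_mul, map_pow, map_neg, map_one]
  have h6 : ((-1 : ℂ)) ^ (n - 1) * (-1) ^ (n - 1) = 1 := by
    rw [← mul_pow]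
    simp
  linear_combination (EE F n θ' g * conj (EE F n θ g)) * h6

theorem DD_irr (hn : 2 ≤ n) (hL : finrank F L = n) (p : ℕ) [Fact p.Prime] [CharP K p]
    (θ : K →* ℂ) (hθ : ∀ a, θ a = 1 → a = 1)
    (hgood : ∀ m, m ∣ Nat.card (GL (Fin n) F) → m.Coprime p → m ∣ Nat.card K - 1) :
    IsIrrCharacter (GL (Fin n) F) (DD F n θ) := by
  haveI : Fintype (GL (Fin n) F) := Fintype.ofFinite _
  have hgc : IsGeneralizedCharacter (GL (Fin n) F) (DD F n θ) := by
    have h1 := EE_gc n p θ hθ hgood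
    rcases neg_one_pow_eq_or ℂ (n - 1) with h | h
    · have h2 : DD F n θ = EE F n θ := by
        funext g
        unfold DD
        rw [h, one_mul]
      rw [h2]
      exact h1
    · have h2 : DD F n θ = -EE F n θ := by
        funext g
        unfold DD
        rw [h, neg_one_mul]
        rfl
      rw [h2]
      exact isGeneralizedCharacter_neg h1
  refine Cfsg.Agent.Frob.isIrrCharacter_of_norm_one hgc ?_
    (n := ∏ i ∈ Finset.Ico 1 n, (Nat.card F ^ i - 1)) ?_
  · rw [DD_inner n hL, cnt_self θ hθ, Nat.cast_one]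
  · rw [DD_one n hn, Nat.cast_prod]
    refine Finset.prod_congr rfl (fun i _ => ?_)
    rw [Nat.cast_sub (Nat.one_le_pow _ _ Nat.card_pos)]
    push_cast
    rfl

open Classical in
theorem DD_cusp (θ : K →* ℂ) [Fintype (GL (Fin n) F)] (m : ℕ) (hm : 0 < m) (hmn : m < n) :
    (∑ g : GL (Fin n) F, if (∀ i j : Fin n, ¬ (i.val < m ∧ m ≤ j.val) →
      (g : Matrix (Fin n) (Fin n) F) i j = (1 : Matrix (Fin n) (Fin n) F) i j)
      then DD F n θ g else 0) = 0 := by
  have h1 := EE_cusp (F := F) n θ m hm hmn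
  have h2 : (∑ g : GL (Fin n) F, if (∀ i j : Fin n, ¬ (i.val < m ∧ m ≤ j.val) →
      (g : Matrix (Fin n) (Fin n) F) i j = (1 : Matrix (Fin n) (Fin n) F) i j)
      then DD F n θ g else 0) = (-1) ^ (n - 1) *
      (∑ g : GL (Fin n) F, if (∀ i j : Fin n, ¬ (i.val < m ∧ m ≤ j.val) →
      (g : Matrix (Fin n) (Fin n) F) i j = (1 : Matrix (Fin n) (Fin n) F) i j)
      then EE F n θ g else 0) := by
    rw [Finset.mul_sum]
    refine Finset.sum_congr rfl (fun g _ => ?_)
    split_ifs with h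
    · rfl
    · rw [mul_zero]
  rw [h2, h1, mul_zero]

/-- **the count.** -/
theorem main_count (hn : 2 ≤ n) (P : (GL (Fin n) F → ℂ) → Prop)
    (hP : ∀ (K : Type u) [Field K] [Finite K] [Algebra F K] (θ : K →* ℂ), P (DD F n θ)) :
    Nat.totient (Nat.card F ^ n - 1) / n ≤
      Nat.card {χ : IrrCharacter (GL (Fin n) F) // P (χ : GL (Fin n) F → ℂ)} := by
  classical
  obtain ⟨p, hp⟩ := CharP.exists F
  haveI : Fact p.Prime := ⟨CharP.char_is_prime F p⟩
  obtain ⟨L, K, _, _, _, _, _, _, _, _, hL, hgood⟩ := exists_tower F p n (by omega)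
    (Nat.card (GL (Fin n) F)) Nat.card_pos.ne'
  haveI : CharP K p := charP_of_injective_algebraMap (algebraMap F K).injective p
  haveI : Module.Finite F L := Module.Finite.of_finite
  obtain ⟨x₀, hx₀⟩ := IsCyclic.exists_generator (α := Lˣ)
  haveI : Fintype (GL (Fin n) F) := Fintype.ofFinite _
  have hcard : Nat.card Lˣ = Nat.card F ^ n - 1 := by
    rw [Nat.card_units, ← hL]
    rw [Module.natCard_eq_pow_finrank (K := F) (V := L)]
  set m := Nat.card F ^ n - 1 with hm
  have hm0 : 0 < m := by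
    rw [← hcard]
    exact Nat.card_pos
  have hex : ∀ ζ : primitiveRoots m ℂ, ∃ θ : K →* ℂ, (∀ a, θ a = 1 → a = 1) ∧
      θ (algebraMap L K (x₀ : L)) = (ζ : ℂ) := by
    intro ζ
    apply exists_theta x₀ hx₀
    rw [hcard]
    exact (mem_primitiveRoots hm0).1 ζ.2
  choose θ hθ1 hθ2 using hex
  haveI : Finite (IrrCharacter (GL (Fin n) F)) := Cfsg.Agent.CharBase.instFiniteIrr _
  let T := {χ : IrrCharacter (GL (Fin n) F) // P (χ : GL (Fin n) F → ℂ)}
  haveI : Fintype T := Fintype.ofFinite T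
  let f : primitiveRoots m ℂ → T := fun ζ =>
    ⟨⟨DD F n (θ ζ), DD_irr n hn hL p (θ ζ) (hθ1 ζ) hgood⟩, hP K (θ ζ)⟩
  have hfib : ∀ ζ₀ : primitiveRoots m ℂ,
      (Finset.univ.filter (fun ζ : primitiveRoots m ℂ => f ζ = f ζ₀)).card ≤ n := by
    intro ζ₀
    have h1 : (Finset.univ.filter (fun ζ : primitiveRoots m ℂ => f ζ = f ζ₀)).card =
        ((Finset.univ.filter (fun ζ : primitiveRoots m ℂ => f ζ = f ζ₀)).image
          (Subtype.val : primitiveRoots m ℂ → ℂ)).card := by
      rw [Finset.card_image_of_injective _ Subtype.val_injective]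
    rw [h1]
    have h2 : (Finset.univ.filter (fun ζ : primitiveRoots m ℂ => f ζ = f ζ₀)).image
          (Subtype.val : primitiveRoots m ℂ → ℂ) ⊆ (Finset.univ : Finset (L ≃ₐ[F] L)).image
          (fun γ => θ ζ₀ (algebraMap L K (γ (x₀ : L)))) := by
      intro z hz
      rw [Finset.mem_image] at hz
      obtain ⟨ζ, hζ, rfl⟩ := hz
      rw [Finset.mem_filter] at hζ
      have h3 : DD F n (θ ζ) = DD F n (θ ζ₀) :=
        congrArg (fun t : T => (t.1 : GL (Fin n) F → ℂ)) hζ.2
      have h4 : (cnt (L := L) F (θ ζ₀) (θ ζ) : ℂ) = 1 := by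
        rw [← DD_inner n hL, h3, DD_inner n hL (θ ζ₀) (θ ζ₀), cnt_self (θ ζ₀) (hθ1 ζ₀),
          Nat.cast_one]
      have h5 : cnt (L := L) F (θ ζ₀) (θ ζ) ≠ 0 := by
        intro h0
        rw [h0] at h4
        simp at h4
      unfold cnt at h5
      obtain ⟨γ, hγ⟩ := Finset.card_pos.1 (Nat.pos_of_ne_zero h5)
      rw [Finset.mem_filter] at hγ
      rw [Finset.mem_image]
      refine ⟨γ.symm, Finset.mem_univ _, ?_⟩
      have h6 := hγ.2 (Units.map (γ.symm : L →* L) x₀)
      have h7 : ((Units.map (γ.symm : L →* L) x₀ : Lˣ) : L) = γ.symm (x₀ : L) := rfl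
      rw [h7, AlgEquiv.apply_symm_apply, hθ2] at h6
      exact h6.symm
    refine (Finset.card_le_card h2).trans (Finset.card_image_le.trans ?_)
    rw [Finset.card_univ, ← Nat.card_eq_fintype_card, IsGalois.card_aut_eq_finrank, hL]
  have h8 : (Finset.univ : Finset (primitiveRoots m ℂ)).card ≤
      n * ((Finset.univ : Finset (primitiveRoots m ℂ)).image f).card := by
    apply Finset.card_le_mul_card_image
    intro b hb
    rw [Finset.mem_image] at hb
    obtain ⟨ζ₀, -, rfl⟩ := hb
    exact hfib ζ₀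
  have h9 : ((Finset.univ : Finset (primitiveRoots m ℂ)).image f).card ≤ Nat.card T := by
    rw [Nat.card_eq_fintype_card]
    exact Finset.card_le_univ _
  have h10 : Nat.totient m ≤ n * Nat.card T := by
    rw [← Complex.card_primitiveRoots m]
    have h11 : (primitiveRoots m ℂ).card = (Finset.univ : Finset (primitiveRoots m ℂ)).card := by
      simp
    rw [h11]
    exact h8.trans (Nat.mul_le_mul_left n h9)
  exact Nat.div_le_of_le_mul h10

end Cfsg.Agent.H15C
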