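import Mathlib

/-!
# Moebius inversion over lattices of invariant subspaces (helper15)
-/

set_option autoImplicit false
set_option linter.style.haveILetI false
set_option linter.unusedSectionVars false

namespace Cfsg.Agent.H15C

open Finset

open Classical in
/-- one step of the recursion. -/
noncomputable def mstep {α : Type*} [PartialOrder α] [Fintype α] (φ : α → ℂ) (x : α)
    (ih : ∀ y, y < x → ℂ) : ℂ :=
  φ x - ∑ y ∈ (univ.filter (· < x)).attach, ih y.1 (mem_filter.1 y.2).2

/-- the Moebius inverse of a function on a finite partial order. -/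
noncomputable def minv {α : Type*} [PartialOrder α] [Fintype α] (φ : α → ℂ) : α → ℂ :=
  (wellFounded_lt (α := α)).fix (mstep φ)

open Classical in
theorem minv_eq {α : Type*} [PartialOrder α] [Fintype α] (φ : α → ℂ) (x : α) :
    minv φ x = φ x - ∑ y ∈ univ.filter (· < x), minv φ y := by
  have h : minv φ x = mstep φ x (fun y _ => minv φ y) :=
    WellFounded.fix_eq (wellFounded_lt (α := α)) (mstep φ) x
  rw [h, mstep]
  congr 1
  exact Finset.sum_attach (univ.filter (· < x)) (fun y => minv φ y)

open Classical in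
theorem filter_le_eq {α : Type*} [PartialOrder α] [Fintype α] (x : α) :
    univ.filter (· ≤ x) = insert x (univ.filter (· < x)) := by
  ext y
  simp only [mem_filter, mem_univ, true_and, mem_insert]
  rw [le_iff_eq_or_lt]

open Classical in
theorem sum_le_eq {α : Type*} [PartialOrder α] [Fintype α] (f : α → ℂ) (x : α) :
    ∑ y ∈ univ.filter (· ≤ x), f y = f x + ∑ y ∈ univ.filter (· < x), f y := by
  rw [filter_le_eq, sum_insert]
  simp

open Classical in
theorem sum_minv {α : Type*} [PartialOrder α] [Fintype α] (φ : α → ℂ) (x : α) :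
    ∑ y ∈ univ.filter (· ≤ x), minv φ y = φ x := by
  rw [sum_le_eq, minv_eq]
  ring

open Classical in
theorem minv_unique {α : Type*} [PartialOrder α] [Fintype α] {φ ψ : α → ℂ}
    (h : ∀ x, ∑ y ∈ univ.filter (· ≤ x), ψ y = φ x) (x : α) : ψ x = minv φ x := by
  induction x using (wellFounded_lt (α := α)).induction with
  | _ x ih =>
    rw [minv_eq, ← h x, sum_le_eq]
    have : ∑ y ∈ univ.filter (· < x), ψ y = ∑ y ∈ univ.filter (· < x), minv φ y :=
      sum_congr rfl (fun y hy => ih y (mem_filter.1 hy).2)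
    rw [this]
    ring

theorem minv_add {α : Type*} [PartialOrder α] [Fintype α] (φ ψ : α → ℂ) (x : α) :
    minv (fun y => φ y + ψ y) x = minv φ x + minv ψ x := by
  symm
  apply minv_unique (ψ := fun x => minv φ x + minv ψ x)
  intro x
  rw [sum_add_distrib, sum_minv, sum_minv]

theorem minv_smul {α : Type*} [PartialOrder α] [Fintype α] (c : ℂ) (φ : α → ℂ) (x : α) :
    minv (fun y => c * φ y) x = c * minv φ x := by
  symm
  apply minv_unique (ψ := fun x => c * minv φ x)
  intro x
  rw [← mul_sum, sum_minv]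

theorem minv_sum {α ι : Type*} [PartialOrder α] [Fintype α] (s : Finset ι) (c : ι → ℂ)
    (φ : ι → α → ℂ) (x : α) :
    minv (fun y => ∑ i ∈ s, c i * φ i y) x = ∑ i ∈ s, c i * minv (φ i) x := by
  symm
  apply minv_unique (ψ := fun x => ∑ i ∈ s, c i * minv (φ i) x)
  intro x
  rw [sum_comm]
  refine sum_congr rfl (fun i _ => ?_)
  rw [← mul_sum, sum_minv]

/-- Moebius inversion on a lower set. -/
theorem minv_comp {α β : Type*} [PartialOrder α] [Fintype α] [PartialOrder β] [Fintype β]
    (j : α → β) (hj : ∀ x y, j x ≤ j y ↔ x ≤ y) (hlow : ∀ x b, b ≤ j x → ∃ y, j y = b)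
    (φ : β → ℂ) (x : α) : minv (fun y => φ (j y)) x = minv φ (j x) := by
  classical
  symm
  apply minv_unique (ψ := fun x => minv φ (j x))
  intro x
  rw [← sum_minv φ (j x)]
  have hinj : Function.Injective j := fun a b hab =>
    le_antisymm ((hj a b).1 hab.le) ((hj b a).1 hab.ge)
  refine sum_bij (fun a _ => j a) ?_ ?_ ?_ ?_
  · intro a ha
    rw [mem_filter] at ha ⊢
    exact ⟨mem_univ _, (hj _ _).2 ha.2⟩
  · intro a _ b _ hab
    exact hinj hab
  · intro b hb
    rw [mem_filter] at hb
    obtain ⟨y, rfl⟩ := hlow x b hb.2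
    exact ⟨y, mem_filter.2 ⟨mem_univ _, (hj _ _).1 hb.2⟩, rfl⟩
  · intro a _
    rfl

/-- Weisner's theorem for the Moebius inverse of the delta function at the bottom. -/
theorem weisner {α : Type*} [Lattice α] [OrderBot α] [Fintype α] [DecidableEq α] {s : α → ℂ}
    (hs : ∀ x : α, x ≠ ⊥ → ∀ [DecidablePred (· ≤ x)], ∑ y ∈ univ.filter (· ≤ x), s y = 0)
    {a : α} (ha : a ≠ ⊥) (x : α) (hax : a ≤ x) :
    ∑ y ∈ univ.filter (fun y => y ⊔ a = x), s y = 0 := by
  classical
  induction x using (wellFounded_lt (α := α)).induction with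
  | _ x ih =>
    have h1 : ∑ y ∈ univ.filter (· ≤ x), s y =
        ∑ z ∈ univ.filter (fun z => a ≤ z ∧ z ≤ x), ∑ y ∈ univ.filter (fun y => y ⊔ a = z), s y := by
      rw [← sum_biUnion]
      · apply sum_congr _ (fun _ _ => rfl)
        ext y
        simp only [mem_filter, mem_univ, true_and, mem_biUnion]
        constructor
        · intro hy
          exact ⟨y ⊔ a, ⟨le_sup_right, sup_le hy hax⟩, rfl⟩
        · rintro ⟨z, ⟨-, hz⟩, rfl⟩
          exact le_sup_left.trans hz
      · intro z _ z' _ hzz
        rw [Function.onFun, disjoint_left]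
        intro y hy hy'
        rw [mem_filter] at hy hy'
        exact hzz (hy.2.symm.trans hy'.2)
    have hx : x ≠ ⊥ := by
      rintro rfl
      exact ha (le_bot_iff.1 hax)
    rw [hs x hx] at h1
    have h2 : univ.filter (fun z => a ≤ z ∧ z ≤ x) =
        insert x (univ.filter (fun z => a ≤ z ∧ z < x)) := by
      ext z
      simp only [mem_filter, mem_univ, true_and, mem_insert]
      constructor
      · rintro ⟨h3, h4⟩
        rcases eq_or_lt_of_le h4 with h5 | h5
        · exact Or.inl h5
        · exact Or.inr ⟨h3, h5⟩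
      · rintro (rfl | ⟨h3, h4⟩)
        · exact ⟨hax, le_rfl⟩
        · exact ⟨h3, h4.le⟩
    rw [h2, sum_insert (by simp)] at h1
    have h3 : ∑ z ∈ univ.filter (fun z => a ≤ z ∧ z < x),
        ∑ y ∈ univ.filter (fun y => y ⊔ a = z), s y = 0 := by
      apply sum_eq_zero
      intro z hz
      rw [mem_filter] at hz
      exact ih z hz.2.2 hz.2.1
    rw [h3, add_zero] at h1
    exact h1.symm

end Cfsg.Agent.H15C
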