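import Cfsg.Agent.H15Cusp.Tor
import Cfsg.Agent.H15Cusp.Conj

/-!
# The inner products of the cuspidal functions (helper15)
-/

set_option autoImplicit false
set_option linter.style.haveILetI false
set_option linter.unusedSectionVars false

namespace Cfsg.Agent.H15C

open Module Submodule Polynomial
open scoped IntermediateField ComplexConjugate

universe u

open Classical in
theorem card_conj {G : Type*} [Group G] [Fintype G] (x g : G) :
    ((Finset.univ.filter (fun h : G => h * x * h⁻¹ = g)).card : ℂ) =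
      if IsConj x g then (Nat.card {h : G // h * x = x * h} : ℂ) else 0 := by
  by_cases hc : IsConj x g
  · rw [if_pos hc]
    obtain ⟨c, hc⟩ := isConj_iff.1 hc
    congr 1
    rw [← Nat.card_eq_finsetCard]
    have k1 : ∀ h : G, h * x * h⁻¹ = g → (c⁻¹ * h) * x = x * (c⁻¹ * h) := by
      intro h h1
      have h2 : h * x = g * h := by rw [← h1]; group
      rw [mul_assoc, h2, ← hc]
      group
    have k2 : ∀ h : G, h * x = x * h → (c * h) * x * (c * h)⁻¹ = g := by
      intro h h1
      rw [mul_assoc c, h1, ← hc]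
      group
    apply Nat.card_congr
    exact
      { toFun := fun h => ⟨c⁻¹ * h.1, k1 _ (Finset.mem_filter.1 h.2).2⟩
        invFun := fun h => ⟨c * h.1, Finset.mem_filter.2 ⟨Finset.mem_univ _, k2 _ h.2⟩⟩
        left_inv := fun h => by simp
        right_inv := fun h => by simp }
  · rw [if_neg hc, Finset.card_eq_zero.2, Nat.cast_zero]
    rw [Finset.filter_eq_empty_iff]
    intro h _ hh
    exact hc (isConj_iff.2 ⟨h, hh⟩)

open Classical in
/-- summing a class function supported on the conjugates of a set. -/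
theorem class_sum {G T : Type*} [Group G] [Fintype G] [Fintype T] (τ : T → G) (f : G → ℂ)
    (hf : ∀ g h, f (h * g * h⁻¹) = f g) (hsupp : ∀ g, f g ≠ 0 → ∃ t, IsConj (τ t) g) :
    ∑ g, f g = (Nat.card G : ℂ) * ∑ t, f (τ t) /
      ((Nat.card {h : G // h * τ t = τ t * h} : ℂ) * (Nat.card {t' : T // IsConj (τ t) (τ t')})) := by
  have h1 : ∀ t : T, (Nat.card G : ℂ) * (f (τ t) /
      ((Nat.card {h : G // h * τ t = τ t * h} : ℂ) *
        (Nat.card {t' : T // IsConj (τ t) (τ t')}))) =
      ∑ g : G, (if IsConj (τ t) g then f g / (Nat.card {t' : T // IsConj (τ t) (τ t')}) else 0) := by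
    intro t
    have hc0 : (Nat.card {h : G // h * τ t = τ t * h} : ℂ) ≠ 0 := by
      haveI : Nonempty {h : G // h * τ t = τ t * h} := ⟨⟨1, by simp⟩⟩
      exact Nat.cast_ne_zero.2 Nat.card_pos.ne'
    have h2 : (Nat.card G : ℂ) * f (τ t) = ∑ h : G, f (h * τ t * h⁻¹) := by
      rw [Finset.sum_congr rfl (fun h _ => hf (τ t) h), Finset.sum_const, Finset.card_univ,
        nsmul_eq_mul, Nat.card_eq_fintype_card]
    have h3 : ∑ h : G, f (h * τ t * h⁻¹) = ∑ g : G,
        ((Finset.univ.filter (fun h : G => h * τ t * h⁻¹ = g)).card : ℂ) * f g := by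
      rw [← Finset.sum_fiberwise (s := Finset.univ) (g := fun h : G => h * τ t * h⁻¹)]
      refine Finset.sum_congr rfl (fun g _ => ?_)
      rw [Finset.sum_congr rfl (g := fun _ => f g)
        (fun h hh => by rw [(Finset.mem_filter.1 hh).2]), Finset.sum_const, nsmul_eq_mul]
    rw [← mul_div_assoc, h2, h3, Finset.sum_div]
    refine Finset.sum_congr rfl (fun g _ => ?_)
    rw [card_conj]
    by_cases hg : IsConj (τ t) g
    · rw [if_pos hg, if_pos hg, mul_div_mul_left _ _ hc0]
    · rw [if_neg hg, if_neg hg]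
      simp
  rw [Finset.mul_sum, Finset.sum_congr rfl (fun t _ => h1 t), Finset.sum_comm]
  refine Finset.sum_congr rfl (fun g _ => ?_)
  by_cases hg : f g = 0
  · rw [hg]
    simp
  obtain ⟨t₀, ht₀⟩ := hsupp g hg
  have h4 : ∀ t : T, (if IsConj (τ t) g then f g / (Nat.card {t' : T // IsConj (τ t) (τ t')} : ℂ)
      else 0) = if IsConj (τ t) g then f g / (Nat.card {t' : T // IsConj (τ t₀) (τ t')} : ℂ)
      else 0 := by
    intro t
    by_cases h : IsConj (τ t) g
    · rw [if_pos h, if_pos h]
      have h5 : IsConj (τ t) (τ t₀) := h.trans ht₀.symm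
      have h6 : Nat.card {t' : T // IsConj (τ t) (τ t')} =
          Nat.card {t' : T // IsConj (τ t₀) (τ t')} := by
        apply Nat.card_congr
        apply Equiv.subtypeEquivRight
        intro t'
        exact ⟨fun h7 => h5.symm.trans h7, fun h7 => h5.trans h7⟩
      rw [h6]
    · rw [if_neg h, if_neg h]
  rw [Finset.sum_congr rfl (fun t _ => h4 t), ← Finset.sum_filter, Finset.sum_const, nsmul_eq_mul]
  have h7 : (Finset.univ.filter (fun t : T => IsConj (τ t) g)).card =
      Nat.card {t' : T // IsConj (τ t₀) (τ t')} := by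
    rw [← Nat.card_eq_finsetCard]
    apply Nat.card_congr
    apply Equiv.subtypeEquivRight
    intro t'
    rw [Finset.mem_filter]
    exact ⟨fun h7 => ht₀.trans h7.2.symm, fun h7 => ⟨Finset.mem_univ _, h7.symm.trans ht₀⟩⟩
  rw [h7]
  have h8 : (Nat.card {t' : T // IsConj (τ t₀) (τ t')} : ℂ) ≠ 0 := by
    haveI : Nonempty {t' : T // IsConj (τ t₀) (τ t')} := ⟨⟨t₀, IsConj.refl _⟩⟩
    exact Nat.cast_ne_zero.2 Nat.card_pos.ne'
  field_simp

variable {F : Type u} [Field F] [Finite F] {L : Type u} [Field L] [Finite L] [Algebra F L]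

/-- the embedding of the torus. -/
noncomputable def mlu (F : Type u) [Field F] {L : Type u} [Field L] [Algebra F L] (t : Lˣ) :
    (Module.End F L)ˣ where
  val := ml F (t : L)
  inv := ml F ((t⁻¹ : Lˣ) : L)
  val_inv := by
    ext y
    change (t : L) * (((t⁻¹ : Lˣ) : L) * y) = y
    rw [← mul_assoc, Units.mul_inv, one_mul]
  inv_val := by
    ext y
    change ((t⁻¹ : Lˣ) : L) * ((t : L) * y) = y
    rw [← mul_assoc, Units.inv_mul, one_mul]

theorem mlu_val (t : Lˣ) : ((mlu F t : (Module.End F L)ˣ) : Module.End F L) = ml F (t : L) := rfl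

/-- a linear equivalence as a unit. -/
noncomputable def leu {V : Type u} [AddCommGroup V] [Module F V] (e : V ≃ₗ[F] V) :
    (Module.End F V)ˣ where
  val := e.toLinearMap
  inv := e.symm.toLinearMap
  val_inv := by ext y; simp
  inv_val := by ext y; simp

theorem conj_mlu (t t' : Lˣ) : IsConj (mlu F t) (mlu F t') ↔ (t' : L) ∈ orb F (t : L) := by
  rw [mem_orb]
  constructor
  · intro h
    obtain ⟨c, hc⟩ := isConj_iff.1 h
    have hint : IsIntegral F (t : L) := Algebra.IsIntegral.isIntegral _
    have h1 : ((c : Module.End F L) * ml F (t : L)) = ml F (t' : L) * (c : Module.End F L) := by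
      have h2 : c * mlu F t = mlu F t' * c := by
        rw [← hc]
        group
      exact congrArg Units.val h2
    have h2 : ∀ f : F[X], ∀ y : L, (c : Module.End F L) (aeval (t : L) f * y) =
        aeval (t' : L) f * (c : Module.End F L) y := by
      intro f
      have h3 : SemiconjBy (c : Module.End F L) (ml F (t : L)) (ml F (t' : L)) := h1
      have h4 : SemiconjBy (c : Module.End F L) (aeval (ml F (t : L)) f)
          (aeval (ml F (t' : L)) f) := by
        induction f using Polynomial.induction_on' with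
        | add a b ha hb =>
          rw [map_add, map_add]
          exact ha.add_right hb
        | monomial n a =>
          rw [aeval_monomial, aeval_monomial]
          exact SemiconjBy.mul_right (Algebra.commutes' a (c : Module.End F L)).symm
            (h3.pow_right n)
      intro y
      have h5 : aeval (ml F (t : L)) f = ml F (aeval (t : L) f) :=
        Polynomial.aeval_algHom_apply (Algebra.lsmul F F L) (t : L) f
      have h6 : aeval (ml F (t' : L)) f = ml F (aeval (t' : L) f) :=
        Polynomial.aeval_algHom_apply (Algebra.lsmul F F L) (t' : L) f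
      rw [h5, h6] at h4
      exact LinearMap.congr_fun h4.eq y
    have h7 : aeval (t' : L) (minpoly F (t : L)) = 0 := by
      have h8 := h2 (minpoly F (t : L)) ((↑c⁻¹ : Module.End F L) 1)
      rw [minpoly.aeval, zero_mul, map_zero] at h8
      have h9 : (c : Module.End F L) ((↑c⁻¹ : Module.End F L) 1) = 1 := by
        rw [← Module.End.mul_apply, Units.mul_inv]
        rfl
      rw [h9, mul_one] at h8
      exact h8.symm
    have h10 := (isConjRoot_iff_aeval_eq_zero hint).2 h7
    obtain ⟨σ, hσ⟩ := isConjRoot_iff_exists_algEquiv.1 h10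
    exact ⟨σ.symm, by rw [← hσ, AlgEquiv.symm_apply_apply]⟩
  · rintro ⟨γ, hγ⟩
    rw [isConj_iff]
    refine ⟨leu γ.toLinearEquiv, ?_⟩
    rw [mul_inv_eq_iff_eq_mul]
    apply Units.ext
    ext y
    change γ ((t : L) * y) = (t' : L) * γ y
    rw [map_mul, hγ]

theorem card_conj_mlu (t : Lˣ) : Nat.card {t' : Lˣ // IsConj (mlu F t) (mlu F t')} =
    finrank F F⟮(t : L)⟯ := by
  rw [← card_orb, ← Nat.card_eq_finsetCard]
  apply Nat.card_congr
  refine
    { toFun := fun t' => ⟨(t'.1 : L), (conj_mlu t t'.1).1 t'.2⟩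
      invFun := fun y => ⟨Units.mk0 (y : L) ?_, ?_⟩
      left_inv := fun t' => by
        apply Subtype.ext
        apply Units.ext
        rfl
      right_inv := fun y => rfl }
  · obtain ⟨γ, hγ⟩ := (mem_orb (F := F) (t : L) _).1 y.2
    rw [← hγ]
    intro h0
    have : (t : L) = 0 := γ.injective (h0.trans (map_zero γ).symm)
    exact t.ne_zero this
  · rw [conj_mlu]
    exact y.2

variable {K : Type u} [Field K] [Finite K] [Algebra F K] [Algebra L K] [IsScalarTower F L K]

/-- the local factor. -/
theorem local_factor (θ θ' : K → ℂ) (t : Lˣ) :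
    (-(beta F K θ' L (ml F (t : L)) * MM (dz F) (ml F (t : L)) *
      conj (MM (beta F K θ) (ml F (t : L))))) /
      ((Nat.card {h : (Module.End F L)ˣ // h * mlu F t = mlu F t * h} : ℂ) *
        (Nat.card {t' : Lˣ // IsConj (mlu F t) (mlu F t')})) =
    beta F K θ' L (ml F (t : L)) * conj (beta F K θ L (ml F (t : L))) /
      (((Nat.card L : ℂ) - 1) * (finrank F L : ℂ)) := by
  haveI : Module.Finite F L := Module.Finite.of_finite
  have hFL := fieldLike_of (F := F) (t : L)
  have hkey := hFL.key inferInstance (beta F K θ) _ (beta_sub θ (t : L))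
  have hcard : Nat.card {h : (Module.End F L)ˣ // h * mlu F t = mlu F t * h} =
      Nat.card {x : (Module.End F L)ˣ // (x : Module.End F L) * ml F (t : L) =
        ml F (t : L) * x} := by
    apply Nat.card_congr
    apply Equiv.subtypeEquivRight
    intro x
    rw [Units.ext_iff]
    rfl
  rw [← hcard] at hkey
  have hB := phi_scalar (beta_invar θ) (beta_addi (F := F) (K := K) θ)
    (IntermediateField.AdjoinSimple.gen F (t : L)) (finrank F⟮(t : L)⟯ L) L rfl
  rw [ml_gen, beta_adj] at hB
  have hdz := hFL.dz_real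
  have hconj := congrArg (starRingEnd ℂ) hkey
  rw [map_mul, map_mul, map_neg, hdz, map_mul, map_sub, map_one, Complex.conj_natCast,
    Complex.conj_natCast] at hconj
  have hBc : conj (beta F K θ L (ml F (t : L))) =
      conj (∑ y ∈ orb F (t : L), θ (algebraMap L K y)) * (finrank F⟮(t : L)⟯ L : ℂ) := by
    rw [hB, map_mul, Complex.conj_natCast]
  rw [card_conj_mlu, ← Module.finrank_mul_finrank F F⟮(t : L)⟯ L]
  push_cast
  have hc0 : (Nat.card {h : (Module.End F L)ˣ // h * mlu F t = mlu F t * h} : ℂ) ≠ 0 := by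
    haveI : Nonempty {h : (Module.End F L)ˣ // h * mlu F t = mlu F t * h} := ⟨⟨1, by simp⟩⟩
    exact Nat.cast_ne_zero.2 Nat.card_pos.ne'
  have hL0 : (Nat.card L : ℂ) - 1 ≠ 0 := by
    have h1 : 1 < Nat.card L := Finite.one_lt_card
    rw [sub_ne_zero]
    exact_mod_cast h1.ne'
  haveI : Module.Finite F F⟮(t : L)⟯ := Module.Finite.of_finite
  haveI : Module.Finite F⟮(t : L)⟯ L := Module.Finite.of_finite
  have hd0 : (finrank F F⟮(t : L)⟯ : ℂ) ≠ 0 := Nat.cast_ne_zero.2 Module.finrank_pos.ne'
  have hN0 : (finrank F⟮(t : L)⟯ L : ℂ) ≠ 0 := Nat.cast_ne_zero.2 Module.finrank_pos.ne'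
  rw [div_eq_div_iff (mul_ne_zero hc0 hd0) (mul_ne_zero hL0 (mul_ne_zero hd0 hN0)), hBc]
  linear_combination (beta F K θ' L (ml F (t : L)) * (finrank F F⟮(t : L)⟯ : ℂ) *
    (finrank F⟮(t : L)⟯ L : ℂ)) * hconj

end Cfsg.Agent.H15C
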