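import Cfsg.Agent.H15Cusp.Norm

/-!
# The inner products of the cuspidal functions, final form (helper15)
-/

set_option autoImplicit false
set_option linter.style.haveILetI false
set_option linter.unusedSectionVars false

namespace Cfsg.Agent.H15C

open Module Submodule Polynomial
open scoped IntermediateField ComplexConjugate

universe u

variable {F : Type u} [Field F] [Finite F] {L : Type u} [Field L] [Finite L] [Algebra F L]
variable {K : Type u} [Field K] [Finite K] [Algebra F K] [Algebra L K] [IsScalarTower F L K]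

theorem theta_norm (θ : K →* ℂ) (a : K) (ha : a ≠ 0) : θ a * conj (θ a) = 1 := by
  have h1 : (θ a) ^ (Nat.card Kˣ) = 1 := by
    rw [← map_pow]
    have h2 : (Units.mk0 a ha) ^ (Nat.card Kˣ) = 1 := pow_card_eq_one'
    have h3 := congrArg Units.val h2
    rw [Units.val_pow_eq_pow_val, Units.val_mk0, Units.val_one] at h3
    rw [h3, map_one]
  have h2 : ‖θ a‖ = 1 := Complex.norm_eq_one_of_pow_eq_one h1 Nat.card_pos.ne'
  rw [Complex.mul_conj, Complex.normSq_eq_norm_sq, h2]
  simp

/-- the character of the torus attached to an automorphism. -/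
noncomputable def tch (θ θ' : K →* ℂ) (γ : L ≃ₐ[F] L) : Lˣ →* ℂ where
  toFun t := θ' (algebraMap L K (γ t)) * θ (algebraMap L K ((t⁻¹ : Lˣ) : L))
  map_one' := by simp
  map_mul' a b := by
    simp only [Units.val_mul, map_mul, mul_inv]
    ring

theorem theta_inv (θ : K →* ℂ) (t : Lˣ) : θ (algebraMap L K ((t⁻¹ : Lˣ) : L)) =
    conj (θ (algebraMap L K (t : L))) := by
  have h0 : algebraMap L K (t : L) ≠ 0 := by
    rw [Ne, map_eq_zero_iff _ (algebraMap L K).injective]
    exact t.ne_zero
  have h1 := theta_norm θ _ h0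
  have h2 : θ (algebraMap L K (t : L)) * θ (algebraMap L K ((t⁻¹ : Lˣ) : L)) = 1 := by
    rw [← map_mul, ← map_mul, Units.mul_inv, map_one, map_one]
  have h3 : θ (algebraMap L K (t : L)) ≠ 0 := left_ne_zero_of_mul_eq_one h1
  exact mul_left_cancel₀ h3 (h2.trans h1.symm)

open Classical in
/-- the number of automorphisms carrying one character to the other. -/
noncomputable def cnt (F : Type u) [Field F] {L : Type u} [Field L] [Finite L] [Algebra F L]
    {K : Type u} [Field K] [Algebra L K] [Finite F] (θ θ' : K →* ℂ) : ℕ :=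
  (Finset.univ.filter (fun γ : L ≃ₐ[F] L => ∀ t : Lˣ, θ' (algebraMap L K (γ t)) =
    θ (algebraMap L K (t : L)))).card

open Classical in
theorem tch_sum (θ θ' : K →* ℂ) (γ : L ≃ₐ[F] L) [Fintype Lˣ] :
    ∑ t : Lˣ, θ' (algebraMap L K (γ t)) * conj (θ (algebraMap L K (t : L))) =
      if ∀ t : Lˣ, θ' (algebraMap L K (γ t)) = θ (algebraMap L K (t : L)) then
        (Nat.card Lˣ : ℂ) else 0 := by
  have h1 : ∀ t : Lˣ, θ' (algebraMap L K (γ t)) * conj (θ (algebraMap L K (t : L))) =
      tch θ θ' γ t := by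
    intro t
    rw [← theta_inv]
    rfl
  rw [Finset.sum_congr rfl (fun t _ => h1 t)]
  by_cases h : ∀ t : Lˣ, θ' (algebraMap L K (γ t)) = θ (algebraMap L K (t : L))
  · rw [if_pos h]
    have h2 : ∀ t : Lˣ, tch θ θ' γ t = 1 := by
      intro t
      rw [← h1, h t]
      apply theta_norm
      rw [Ne, map_eq_zero_iff _ (algebraMap L K).injective]
      exact t.ne_zero
    rw [Finset.sum_congr rfl (fun t _ => h2 t)]
    simp
  · rw [if_neg h]
    apply sum_hom_units_eq_zero
    intro h0
    apply h
    intro t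
    have h2 : tch θ θ' γ t = 1 := by rw [h0]; rfl
    rw [← h1] at h2
    have h3 : θ (algebraMap L K (t : L)) * conj (θ (algebraMap L K (t : L))) = 1 := by
      apply theta_norm
      rw [Ne, map_eq_zero_iff _ (algebraMap L K).injective]
      exact t.ne_zero
    have h4 : conj (θ (algebraMap L K (t : L))) ≠ 0 := right_ne_zero_of_mul_eq_one h3
    exact mul_right_cancel₀ h4 (h2.trans h3.symm)

open Classical in
theorem torus_sum (θ θ' : K →* ℂ) [Fintype Lˣ] :
    ∑ t : Lˣ, beta F K θ' L (ml F (t : L)) * conj (beta F K θ L (ml F (t : L))) =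
      (finrank F L : ℂ) * (Nat.card Lˣ : ℂ) * (cnt (L := L) F θ θ' : ℂ) := by
  haveI : Module.Finite F L := Module.Finite.of_finite
  have h1 : ∀ t : Lˣ, beta F K θ' L (ml F (t : L)) * conj (beta F K θ L (ml F (t : L))) =
      ∑ γ' : L ≃ₐ[F] L, ∑ γ : L ≃ₐ[F] L, θ' (algebraMap L K (γ (t : L))) *
        conj (θ (algebraMap L K (γ' (t : L)))) := by
    intro t
    rw [beta_gal, beta_gal, map_sum, Finset.sum_mul_sum, Finset.sum_comm]
  rw [Finset.sum_congr rfl (fun t _ => h1 t), Finset.sum_comm]
  have h2 : ∀ γ' : L ≃ₐ[F] L, ∑ t : Lˣ, ∑ γ : L ≃ₐ[F] L, θ' (algebraMap L K (γ (t : L))) *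
        conj (θ (algebraMap L K (γ' (t : L)))) = (Nat.card Lˣ : ℂ) * (cnt (L := L) F θ θ' : ℂ) := by
    intro γ'
    rw [Finset.sum_comm]
    rw [← Equiv.sum_comp (Equiv.mulRight γ')]
    have h3 : ∀ γ : L ≃ₐ[F] L, ∑ t : Lˣ, θ' (algebraMap L K ((Equiv.mulRight γ' γ) (t : L))) *
        conj (θ (algebraMap L K (γ' (t : L)))) =
        ∑ t : Lˣ, θ' (algebraMap L K (γ (t : L))) * conj (θ (algebraMap L K (t : L))) := by
      intro γ
      rw [← Equiv.sum_comp (Units.mapEquiv (γ' : L ≃* L)).toEquiv
        (fun t : Lˣ => θ' (algebraMap L K (γ (t : L))) * conj (θ (algebraMap L K (t : L))))]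
      rfl
    rw [Finset.sum_congr rfl (fun γ _ => (h3 γ).trans (tch_sum θ θ' γ)), ← Finset.sum_filter,
      Finset.sum_const, nsmul_eq_mul, mul_comm]
    unfold cnt
    congr!
  rw [Finset.sum_congr rfl (fun γ' _ => h2 γ'), Finset.sum_const, nsmul_eq_mul,
    Finset.card_univ, ← Nat.card_eq_fintype_card, IsGalois.card_aut_eq_finrank, mul_assoc]

theorem beta_conj (θ : K → ℂ) {V : Type u} [AddCommGroup V] [Module F V] [Finite V]
    (g h : (Module.End F V)ˣ) :
    beta F K θ V ((h * g * h⁻¹ : (Module.End F V)ˣ) : Module.End F V) =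
      beta F K θ V (g : Module.End F V) := by
  symm
  let e : V ≃ₗ[F] V := LinearEquiv.ofBijective (h : Module.End F V)
    ⟨unit_inj h, Finite.surjective_of_injective (unit_inj h)⟩
  apply beta_invar θ V V e
  intro v
  change ((h : Module.End F V) * (g : Module.End F V)) v =
    (((h * g * h⁻¹ : (Module.End F V)ˣ) : Module.End F V) * (h : Module.End F V)) v
  rw [← Units.val_mul, ← Units.val_mul]
  congr 2
  group

theorem MM_conj {Φ : IF.{u, u} F} (hΦ : Invar Φ) {V : Type u} [AddCommGroup V] [Module F V]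
    [Finite V] (g h : (Module.End F V)ˣ) :
    MM Φ ((h * g * h⁻¹ : (Module.End F V)ˣ) : Module.End F V) = MM Φ (g : Module.End F V) := by
  symm
  let e : V ≃ₗ[F] V := LinearEquiv.ofBijective (h : Module.End F V)
    ⟨unit_inj h, Finite.surjective_of_injective (unit_inj h)⟩
  apply MM_congr hΦ e
  intro v
  change ((h : Module.End F V) * (g : Module.End F V)) v =
    (((h * g * h⁻¹ : (Module.End F V)ˣ) : Module.End F V) * (h : Module.End F V)) v
  rw [← Units.val_mul, ← Units.val_mul]
  congr 2
  group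

/-- **the inner products.** -/
theorem inner_GL (θ θ' : K →* ℂ) [Fintype (Module.End F L)ˣ] :
    ∑ g : (Module.End F L)ˣ, MM (beta F K θ') (g : Module.End F L) *
      conj (MM (beta F K θ) (g : Module.End F L)) =
      (Nat.card (Module.End F L)ˣ : ℂ) * (cnt (L := L) F θ θ' : ℂ) := by
  classical
  haveI : Module.Finite F L := Module.Finite.of_finite
  letI : Fintype Lˣ := Fintype.ofFinite _
  rw [ip_main (beta_invar θ) (beta_addi (F := F) (K := K) θ) (beta_invar θ')
    (beta_addi (F := F) (K := K) θ'), ← Finset.sum_neg_distrib]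
  rw [class_sum (mlu F (L := L))]
  · have h1 : ∀ t : Lˣ, -(beta F K θ' L ((mlu F t : (Module.End F L)ˣ) : Module.End F L) *
        MM (dz F) ((mlu F t : (Module.End F L)ˣ) : Module.End F L) *
        conj (MM (beta F K θ) ((mlu F t : (Module.End F L)ˣ) : Module.End F L))) /
        ((Nat.card {h : (Module.End F L)ˣ // h * mlu F t = mlu F t * h} : ℂ) *
        (Nat.card {t' : Lˣ // IsConj (mlu F t) (mlu F t')})) =
        beta F K θ' L (ml F (t : L)) * conj (beta F K θ L (ml F (t : L))) /
        (((Nat.card L : ℂ) - 1) * (finrank F L : ℂ)) := fun t =>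
      local_factor θ θ' t
    rw [Finset.sum_congr rfl (fun t _ => h1 t), ← Finset.sum_div, torus_sum]
    have h2 : (Nat.card Lˣ : ℂ) = (Nat.card L : ℂ) - 1 := by
      rw [Nat.card_units, Nat.cast_sub (Nat.card_pos (α := L))]
      simp
    rw [h2]
    have hL0 : (Nat.card L : ℂ) - 1 ≠ 0 := by
      have h1 : 1 < Nat.card L := Finite.one_lt_card
      rw [sub_ne_zero]
      exact_mod_cast h1.ne'
    have hn0 : (finrank F L : ℂ) ≠ 0 := Nat.cast_ne_zero.2 Module.finrank_pos.ne'
    congr 1
    rw [div_eq_iff (mul_ne_zero hL0 hn0)]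
    ring
  · intro g h
    rw [beta_conj, MM_conj dz_invar, MM_conj (beta_invar θ)]
  · intro g hg
    have hg1 : MM (dz F) (g : Module.End F L) ≠ 0 := by
      intro h0
      apply hg
      rw [h0]
      simp
    have hg2 : MM (beta F K θ) (g : Module.End F L) ≠ 0 := by
      intro h0
      apply hg
      rw [h0]
      simp
    have hirr := minpoly_irred_of_ne (beta_invar θ) (beta_addi (F := F) (K := K) θ)
      (g : Module.End F L) hg2 hg1
    obtain ⟨t, e, he⟩ := exists_conj (L := L) rfl (g : Module.End F L) hirr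
    have ht : t ≠ 0 := by
      rintro rfl
      have h3 := he 1
      rw [zero_mul] at h3
      have h4 : (g : Module.End F L) 1 = 0 := e.injective (h3.trans (map_zero e).symm)
      have h5 : (1 : L) = 0 := unit_inj g (h4.trans (map_zero _).symm)
      exact one_ne_zero h5
    refine ⟨Units.mk0 t ht, ?_⟩
    apply IsConj.symm
    rw [isConj_iff]
    refine ⟨leu e, ?_⟩
    rw [mul_inv_eq_iff_eq_mul]
    apply Units.ext
    ext y
    exact he y

/-- the self inner product is one when the character is injective. -/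
theorem cnt_self (θ : K →* ℂ) (hθ : ∀ a, θ a = 1 → a = 1) : cnt (L := L) F θ θ = 1 := by
  classical
  unfold cnt
  rw [Finset.card_eq_one]
  refine ⟨1, ?_⟩
  ext γ
  rw [Finset.mem_filter, Finset.mem_singleton]
  constructor
  · rintro ⟨-, h⟩
    ext y
    by_cases hy : y = 0
    · rw [hy, map_zero, map_zero]
    · have h1 := h (Units.mk0 y hy)
      rw [Units.val_mk0] at h1
      have h2 : θ (algebraMap L K (γ y * y⁻¹)) = 1 := by
        rw [map_mul, map_mul, h1, ← map_mul, ← map_mul, mul_inv_cancel₀ hy, map_one, map_one]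
      have h3 := hθ _ h2
      have h4 : γ y * y⁻¹ = 1 := by
        apply (algebraMap L K).injective
        rw [h3, map_one]
      rw [mul_inv_eq_one₀ hy] at h4
      exact h4
  · rintro rfl
    exact ⟨Finset.mem_univ _, fun t => rfl⟩

end Cfsg.Agent.H15C
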