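import Cfsg.Agent.H15Cusp.Lat

/-!
# Strong cuspidality of the Moebius inverse of an additive function (helper15)
-/

set_option autoImplicit false
set_option linter.style.haveILetI false
set_option linter.unusedSectionVars false

namespace Cfsg.Agent.H15C

open Module Submodule

universe u v

variable {F : Type v} [Field F]

/-- additivity on short exact sequences. -/
def Addi (Φ : IF.{u, v} F) : Prop :=
  ∀ (A V B : Type u) [AddCommGroup A] [Module F A] [AddCommGroup V] [Module F V]
    [AddCommGroup B] [Module F B] [Finite A] [Finite V] [Finite B]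
    (j : A →ₗ[F] V) (p : V →ₗ[F] B) (_ : Function.Injective j) (_ : Function.Surjective p)
    (_ : ∀ v, p v = 0 ↔ ∃ a, j a = v) (x₁ : Module.End F A) (x : Module.End F V)
    (x₂ : Module.End F B) (_ : ∀ a, x (j a) = j (x₁ a)) (_ : ∀ v, p (x v) = x₂ (p v)),
    Φ V x = Φ A x₁ + Φ B x₂

section hom

variable {A B : Type u} [AddCommGroup A] [Module F A] [AddCommGroup B] [Module F B]
  [Finite A] [Finite B]

instance instFiniteLinHom : Finite (B →ₗ[F] A) := DFunLike.finite _

noncomputable instance instFintypeLinHom : Fintype (B →ₗ[F] A) := Fintype.ofFinite _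

end hom

/-- averaging over the fibres of a surjective homomorphism. -/
theorem sum_comp_surj {G H : Type*} [AddGroup G] [AddGroup H] [Fintype G] [Fintype H]
    (f : G →+ H) (hf : Function.Surjective f) (g : H → ℂ) :
    ∑ x, g (f x) = (Fintype.card G / Fintype.card H : ℂ) * ∑ y, g y := by
  classical
  set k : ℕ := (Finset.univ.filter (fun x => f x = 0)).card with hk
  have h1 : ∀ y : H, (Finset.univ.filter (fun x => f x = y)).card = k := fun y =>
    AddMonoidHom.card_fiber_eq_of_mem_range f (hf y) (hf 0)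
  have h2 : ∀ g : H → ℂ, ∑ x, g (f x) = k * ∑ y, g y := by
    intro g
    rw [← Finset.sum_fiberwise (s := Finset.univ) (g := f), Finset.mul_sum]
    refine Finset.sum_congr rfl (fun y _ => ?_)
    rw [Finset.sum_congr rfl (g := fun _ => g y)
      (fun x hx => by rw [(Finset.mem_filter.1 hx).2]), Finset.sum_const, h1 y, nsmul_eq_mul]
  have h3 := h2 (fun _ => 1)
  simp only [Finset.sum_const, Finset.card_univ, nsmul_eq_mul, mul_one] at h3
  have h4 : (Fintype.card H : ℂ) ≠ 0 := Nat.cast_ne_zero.2 Fintype.card_ne_zero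
  rw [h2 g, h3]
  field_simp

theorem Addi.zero {Φ : IF.{u, v} F} (hadd : Addi Φ) (A : Type u) [AddCommGroup A] [Module F A]
    [Subsingleton A] (x : Module.End F A) : Φ A x = 0 := by
  have h := hadd A A A LinearMap.id LinearMap.id Function.injective_id Function.surjective_id
    (fun v => ⟨fun _ => ⟨v, rfl⟩, fun _ => Subsingleton.elim _ _⟩) x x x
    (fun _ => Subsingleton.elim _ _) (fun _ => Subsingleton.elim _ _)
  have h' : Φ A x + Φ A x = Φ A x + 0 := by rw [add_zero]; exact h.symm
  exact add_left_cancel h'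

section basic

variable {V V' : Type u} [AddCommGroup V] [Module F V] [Finite V] [AddCommGroup V'] [Module F V']
  [Finite V']

theorem bot_mem_stab (g : Module.End F V) : (⊥ : Submodule F V) ∈ Module.End.invtSubmodule g := by
  intro v hv
  rw [Submodule.mem_bot] at hv
  rw [hv]
  simp

theorem MM_subsingleton {Φ : IF.{u, v} F} (hΦ : Invar Φ) [Subsingleton V] (g : Module.End F V) :
    MM Φ g = Φ V g := by
  classical
  rw [MM_eq hΦ, Finset.sum_eq_zero, sub_zero]
  intro W hW
  exact absurd (Subsingleton.elim W ⊤) (Finset.mem_filter.1 hW).2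

theorem mmS_bot {Φ : IF.{u, v} F} (hΦ : Invar Φ) (g : Module.End F V) :
    mmS Φ g ⊥ = Φ (⊥ : Submodule F V) (g.restrict (bot_mem_stab g)) := by
  rw [mmS_of_mem Φ (bot_mem_stab g)]
  exact MM_subsingleton hΦ _

theorem mmS_bot_zero {Φ : IF.{u, v} F} (hΦ : Invar Φ) (hadd : Addi Φ) (g : Module.End F V) :
    mmS Φ g ⊥ = 0 := by
  rw [mmS_bot hΦ, hadd.zero]

theorem mmS_map {Φ : IF.{u, v} F} (hΦ : Invar Φ) {g : Module.End F V} {g' : Module.End F V'}
    (j : V →ₗ[F] V') (hj : Function.Injective j) (h : ∀ v, j (g v) = g' (j v))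
    (W : Submodule F V) : mmS Φ g' (W.map j) = mmS Φ g W := by
  by_cases hW : W ∈ Module.End.invtSubmodule g
  · symm
    exact mmS_of_mono hΦ W hW j (fun w _ hw => hj (hw.trans (map_zero j).symm)) (fun v _ => h v)
      _ rfl
  · rw [mmS_of_notMem Φ hW, mmS_of_notMem Φ]
    intro hW'
    apply hW
    intro v hv
    have h1 := hW' (Submodule.mem_map_of_mem hv)
    rw [Submodule.mem_comap, ← h v] at h1
    obtain ⟨w, hw, hwe⟩ := h1
    have := hj hwe
    rw [Submodule.mem_comap, ← this]
    exact hw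

end basic

section prod

variable {A B : Type u} [AddCommGroup A] [Module F A] [AddCommGroup B] [Module F B]
  [Finite A] [Finite B]

/-- a block triangular endomorphism. -/
def upper (x₂ : Module.End F B) (x₁ : Module.End F A) (c : B →ₗ[F] A) : Module.End F (B × A) :=
  LinearMap.prod (x₂ ∘ₗ LinearMap.fst F B A)
    (x₁ ∘ₗ LinearMap.snd F B A + c ∘ₗ LinearMap.fst F B A)

theorem upper_apply (x₂ : Module.End F B) (x₁ : Module.End F A) (c : B →ₗ[F] A) (b : B) (a : A) :
    upper x₂ x₁ c (b, a) = (x₂ b, x₁ a + c b) := rfl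

theorem upper_apply' (x₂ : Module.End F B) (x₁ : Module.End F A) (c : B →ₗ[F] A) (v : B × A) :
    upper x₂ x₁ c v = (x₂ v.1, x₁ v.2 + c v.1) := rfl

/-- the subspaces inside `A`. -/
theorem sum_low {Φ : IF.{u, v} F} (hΦ : Invar Φ) (x₂ : Module.End F B) (x₁ : Module.End F A)
    (c : B →ₗ[F] A) [DecidablePred (fun W : Submodule F (B × A) => ∀ w ∈ W, w.1 = 0)] :
    ∑ W ∈ Finset.univ.filter (fun W : Submodule F (B × A) => ∀ w ∈ W, w.1 = 0),
      mmS Φ (upper x₂ x₁ c) W = Φ A x₁ := by
  classical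
  rw [← sum_mmS hΦ x₁]
  symm
  have hinj : Function.Injective (LinearMap.inr F B A) := LinearMap.inr_injective
  refine Finset.sum_bij (fun W _ => W.map (LinearMap.inr F B A)) ?_ ?_ ?_ ?_
  · intro W _
    rw [Finset.mem_filter]
    refine ⟨Finset.mem_univ _, ?_⟩
    rintro _ ⟨w, hw, rfl⟩
    rfl
  · intro W _ W' _ h
    exact Submodule.map_injective_of_injective hinj h
  · intro W hW
    rw [Finset.mem_filter] at hW
    refine ⟨W.comap (LinearMap.inr F B A), Finset.mem_univ _, ?_⟩
    apply Submodule.map_comap_eq_of_le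
    intro w hw
    refine ⟨w.2, ?_⟩
    exact Prod.ext (hW.2 w hw).symm rfl
  · intro W _
    rw [mmS_map hΦ (g := x₁) (g' := upper x₂ x₁ c) (LinearMap.inr F B A) hinj]
    intro v
    rw [upper_apply']
    simp

/-- the restriction of homomorphisms to a subspace. -/
def restrHom (B' : Submodule F B) : (B →ₗ[F] A) →+ (B' →ₗ[F] A) where
  toFun c := c ∘ₗ B'.subtype
  map_zero' := rfl
  map_add' _ _ := rfl

theorem restrHom_surj (B' : Submodule F B) : Function.Surjective (restrHom (A := A) B') := by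
  intro f
  exact LinearMap.exists_extend f

open Classical in
/-- the complements: one graph. -/
theorem sum_graph {Φ : IF.{u, v} F} (hΦ : Invar Φ) (x₂ : Module.End F B) (x₁ : Module.End F A)
    (B' : Submodule F B) (h : B' →ₗ[F] A) :
    ∑ c : B →ₗ[F] A, mmS Φ (upper x₂ x₁ c) (LinearPMap.graph ⟨B', h⟩) =
      (Fintype.card (B →ₗ[F] A) / Fintype.card (B' →ₗ[F] A) : ℂ) * mmS Φ x₂ B' := by
  set W : Submodule F (B × A) := LinearPMap.graph ⟨B', h⟩ with hWd
  have hmem : ∀ w : B × A, w ∈ W ↔ ∃ y : B', (y : B) = w.1 ∧ h y = w.2 := fun w =>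
    LinearPMap.mem_graph_iff (f := (⟨B', h⟩ : B →ₗ.[F] A))
  have hmap : W.map (LinearMap.fst F B A) = B' := by
    ext b
    constructor
    · rintro ⟨w, hw, rfl⟩
      obtain ⟨y, hy, -⟩ := (hmem w).1 hw
      rw [LinearMap.fst_apply, ← hy]
      exact y.2
    · intro hb
      exact ⟨(b, h ⟨b, hb⟩), (hmem _).2 ⟨⟨b, hb⟩, rfl, rfl⟩, rfl⟩
  by_cases hB : B' ∈ Module.End.invtSubmodule x₂
  · have key : ∀ c : B →ₗ[F] A, mmS Φ (upper x₂ x₁ c) W =
        if restrHom B' c = h ∘ₗ (x₂.restrict (p := B') (q := B') hB) - x₁ ∘ₗ h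
          then mmS Φ x₂ B' else 0 := by
      intro c
      have hstab : W ∈ Module.End.invtSubmodule (upper x₂ x₁ c) ↔
          restrHom B' c = h ∘ₗ (x₂.restrict (p := B') (q := B') hB) - x₁ ∘ₗ h := by
        constructor
        · intro hst
          ext b
          have h1 : ((b : B), h b) ∈ W := (hmem _).2 ⟨b, rfl, rfl⟩
          have h2 := hst h1
          rw [Submodule.mem_comap, upper_apply, hmem] at h2
          obtain ⟨y, hy1, hy2⟩ := h2
          have h3 : y = x₂.restrict (p := B') (q := B') hB b := Subtype.ext hy1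
          rw [h3] at hy2
          change c b = h (x₂.restrict (p := B') (q := B') hB b) - x₁ (h b)
          rw [hy2]
          change c b = x₁ (h b) + c b - x₁ (h b)
          abel
        · intro he w hw
          rw [Submodule.mem_comap, upper_apply', hmem]
          obtain ⟨y, hy1, hy2⟩ := (hmem w).1 hw
          refine ⟨x₂.restrict (p := B') (q := B') hB y, ?_, ?_⟩
          · change x₂ y = x₂ w.1
            rw [hy1]
          · have h3 := LinearMap.congr_fun he y
            change c y = h (x₂.restrict (p := B') (q := B') hB y) - x₁ (h y) at h3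
            change _ = x₁ w.2 + c w.1
            rw [← hy1, ← hy2, h3]
            abel
      by_cases hs : W ∈ Module.End.invtSubmodule (upper x₂ x₁ c)
      · rw [if_pos (hstab.1 hs)]
        apply mmS_of_mono hΦ W hs (LinearMap.fst F B A) _ _ _ hmap
        · intro w hw h0
          obtain ⟨y, hy1, hy2⟩ := (hmem w).1 hw
          have h0' : w.1 = 0 := h0
          have h3 : y = 0 := Subtype.ext (hy1.trans h0')
          rw [h3, map_zero] at hy2
          exact Prod.ext h0' hy2.symm
        · intro v _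
          rfl
      · rw [if_neg (fun hh => hs (hstab.2 hh)), mmS_of_notMem Φ hs]
    rw [Finset.sum_congr rfl (fun c _ => key c)]
    rw [sum_comp_surj (restrHom B') (restrHom_surj B')
      (fun y => if y = h ∘ₗ (x₂.restrict (p := B') (q := B') hB) - x₁ ∘ₗ h
          then mmS Φ x₂ B' else 0)]
    rw [Finset.sum_ite_eq' Finset.univ]
    simp
  · rw [mmS_of_notMem Φ hB, mul_zero]
    apply Finset.sum_eq_zero
    intro c _
    apply mmS_of_notMem
    intro hs
    apply hB
    rw [← hmap]
    rintro _ ⟨w, hw, rfl⟩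
    exact ⟨_, hs hw, rfl⟩

open Classical in
/-- all the partial complements. -/
theorem sum_compl {Φ : IF.{u, v} F} (hΦ : Invar Φ) (x₂ : Module.End F B) (x₁ : Module.End F A) :
    ∑ c : B →ₗ[F] A, ∑ W ∈ Finset.univ.filter
      (fun W : Submodule F (B × A) => ∀ w ∈ W, w.1 = 0 → w.2 = 0),
      mmS Φ (upper x₂ x₁ c) W = (Fintype.card (B →ₗ[F] A) : ℂ) * Φ B x₂ := by
  rw [Finset.sum_comm]
  have h1 : ∀ f : Submodule F (B × A) → ℂ, ∑ W ∈ Finset.univ.filter
      (fun W : Submodule F (B × A) => ∀ w ∈ W, w.1 = 0 → w.2 = 0), f W =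
      ∑ B' : Submodule F B, ∑ h : B' →ₗ[F] A, f (LinearPMap.graph ⟨B', h⟩) := by
    intro f
    rw [Finset.sum_sigma' Finset.univ (fun _ => Finset.univ)
      (fun (B' : Submodule F B) (h : B' →ₗ[F] A) => f (LinearPMap.graph ⟨B', h⟩))]
    symm
    refine Finset.sum_bij (fun s _ => LinearPMap.graph (⟨s.1, s.2⟩ : B →ₗ.[F] A)) ?_ ?_ ?_ ?_
    · intro s _
      rw [Finset.mem_filter]
      refine ⟨Finset.mem_univ _, ?_⟩
      intro w hw h0
      rw [LinearPMap.mem_graph_iff] at hw
      obtain ⟨y, hy1, hy2⟩ := hw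
      have h3 : y = 0 := Subtype.ext (hy1.trans h0)
      rw [h3] at hy2
      rw [← hy2]
      exact map_zero _
    · rintro ⟨B₁, h₁⟩ _ ⟨B₂, h₂⟩ _ h
      have h4 := LinearPMap.eq_of_eq_graph h
      have h5 : B₁ = B₂ := congrArg LinearPMap.domain h4
      subst h5
      have h6 : h₁ = h₂ := by
        have := (LinearPMap.mk.injEq B₁ h₁ B₁ h₂).mp h4
        exact eq_of_heq this.2
      rw [h6]
    · intro W hW
      rw [Finset.mem_filter] at hW
      refine ⟨⟨W.toLinearPMap.domain, W.toLinearPMap.toFun⟩, by simp, ?_⟩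
      exact Submodule.toLinearPMap_graph_eq W hW.2
    · intro s _
      rfl
  rw [h1]
  rw [← sum_mmS hΦ x₂, Finset.mul_sum]
  refine Finset.sum_congr rfl (fun B' _ => ?_)
  rw [Finset.sum_congr rfl (fun h _ => sum_graph hΦ x₂ x₁ B' h)]
  rw [Finset.sum_const, Finset.card_univ, nsmul_eq_mul]
  have h4 : (Fintype.card (B' →ₗ[F] A) : ℂ) ≠ 0 := Nat.cast_ne_zero.2 Fintype.card_ne_zero
  field_simp

end prod

end Cfsg.Agent.H15C
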