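import Cfsg.Agent.H15Cusp.SC

/-!
# Strong cuspidality, the induction (helper15)
-/

set_option autoImplicit false
set_option linter.style.haveILetI false
set_option linter.unusedSectionVars false

namespace Cfsg.Agent.H15C

open Module Submodule

universe u v

variable {F : Type v} [Field F]

/-- the statement of strong cuspidality for small spaces. -/
def SCn (Φ : IF.{u, v} F) (n : ℕ) : Prop :=
  ∀ (A V B : Type u) [AddCommGroup A] [Module F A] [AddCommGroup V] [Module F V]
    [AddCommGroup B] [Module F B] [Finite A] [Finite V] [Finite B]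
    (j : A →ₗ[F] V) (p : V →ₗ[F] B) (_ : Function.Injective j) (_ : Function.Surjective p)
    (_ : ∀ v, p v = 0 ↔ ∃ a, j a = v) (x₁ : Module.End F A) (x : Module.End F V)
    (x₂ : Module.End F B) (_ : ∀ a, x (j a) = j (x₁ a)) (_ : ∀ v, p (x v) = x₂ (p v)),
    Nat.card V < n → Nontrivial A → Nontrivial B →
      ∑ δ : B →ₗ[F] A, MM Φ (x + j ∘ₗ δ ∘ₗ p) = 0

section prod

variable {A B : Type u} [AddCommGroup A] [Module F A] [AddCommGroup B] [Module F B]
  [Finite A] [Finite B]

/-- homomorphisms compatible with a subspace. -/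
def compatHom (W : Submodule F (B × A)) : AddSubgroup (B →ₗ[F] A) where
  carrier := {d | ∀ b ∈ W.map (LinearMap.fst F B A), d b ∈ W.comap (LinearMap.inr F B A)}
  zero_mem' := fun b _ => by
    rw [LinearMap.zero_apply]
    exact Submodule.zero_mem _
  add_mem' := fun {x y} hx hy b hb => by
    rw [LinearMap.add_apply]
    exact Submodule.add_mem _ (hx b hb) (hy b hb)
  neg_mem' := fun {x} hx b hb => by
    rw [LinearMap.neg_apply]
    exact Submodule.neg_mem _ (hx b hb)

/-- their restrictions. -/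
def compatRestr (W : Submodule F (B × A)) :
    compatHom W →+ (W.map (LinearMap.fst F B A) →ₗ[F] W.comap (LinearMap.inr F B A)) where
  toFun d := LinearMap.restrict d.1 d.2
  map_zero' := rfl
  map_add' _ _ := rfl

theorem compatRestr_surj (W : Submodule F (B × A)) : Function.Surjective (compatRestr W) := by
  intro δ
  obtain ⟨d, hd⟩ := LinearMap.exists_extend ((W.comap (LinearMap.inr F B A)).subtype ∘ₗ δ)
  have hd' : ∀ b : W.map (LinearMap.fst F B A), d b = (δ b : A) := fun b =>
    LinearMap.congr_fun hd b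
  refine ⟨⟨d, ?_⟩, ?_⟩
  · intro b hb
    rw [show d b = (δ ⟨b, hb⟩ : A) from hd' ⟨b, hb⟩]
    exact (δ ⟨b, hb⟩).2
  · ext b
    exact hd' b

/-- the induced injection. -/
def injW (W : Submodule F (B × A)) : W.comap (LinearMap.inr F B A) →ₗ[F] W :=
  LinearMap.restrict (LinearMap.inr F B A) (fun _ h => h)

/-- the induced projection. -/
def prW (W : Submodule F (B × A)) : W →ₗ[F] W.map (LinearMap.fst F B A) :=
  LinearMap.restrict (LinearMap.fst F B A) (fun _ h => Submodule.mem_map_of_mem h)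

theorem upper_add (x₂ : Module.End F B) (x₁ : Module.End F A) (c d : B →ₗ[F] A) (v : B × A) :
    upper x₂ x₁ (c + d) v = upper x₂ x₁ c v + LinearMap.inr F B A (d v.1) := by
  rw [upper_apply', upper_apply']
  simp [add_assoc]

open Classical in
theorem sum_mixed {Φ : IF.{u, v} F} (x₂ : Module.End F B)
    (x₁ : Module.End F A) (IH : SCn Φ (Nat.card (B × A))) (W : Submodule F (B × A))
    (hW : W ≠ ⊤) (hA : W.comap (LinearMap.inr F B A) ≠ ⊥)
    (hB : W.map (LinearMap.fst F B A) ≠ ⊥) :
    ∑ c : B →ₗ[F] A, mmS Φ (upper x₂ x₁ c) W = 0 := by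
  by_cases hex : ∃ c₀ : B →ₗ[F] A, W ∈ Module.End.invtSubmodule (upper x₂ x₁ c₀)
  swap
  · apply Finset.sum_eq_zero
    intro c _
    exact mmS_of_notMem Φ (fun h => hex ⟨c, h⟩)
  obtain ⟨c₀, hc₀⟩ := hex
  rw [← Equiv.sum_comp (Equiv.addLeft c₀)]
  have hst : ∀ d : B →ₗ[F] A, W ∈ Module.End.invtSubmodule (upper x₂ x₁ (c₀ + d)) ↔
      d ∈ compatHom W := by
    intro d
    constructor
    · rintro h _ ⟨w, hw, rfl⟩
      have h1 := h hw
      rw [Submodule.mem_comap, upper_add] at h1
      have h2 := hc₀ hw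
      rw [Submodule.mem_comap] at h2
      have h3 := W.sub_mem h1 h2
      rw [add_sub_cancel_left] at h3
      exact h3
    · intro h w hw
      rw [Submodule.mem_comap, upper_add]
      exact W.add_mem (hc₀ hw) (h _ (Submodule.mem_map_of_mem hw))
  set y : Module.End F W := (upper x₂ x₁ c₀).restrict (p := W) (q := W) hc₀ with hy
  have key : ∀ d : compatHom W, mmS Φ (upper x₂ x₁ (c₀ + d.1)) W =
      MM Φ (y + injW W ∘ₗ (compatRestr W d) ∘ₗ prW W) := by
    intro d
    rw [mmS_of_mem Φ ((hst d.1).2 d.2)]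
    congr 1
    ext w
    · change (upper x₂ x₁ (c₀ + d.1) w).1 = _
      rw [upper_add]
      rfl
    · change (upper x₂ x₁ (c₀ + d.1) w).2 = _
      rw [upper_add]
      rfl
  have h1 : ∑ d : B →ₗ[F] A, mmS Φ (upper x₂ x₁ (Equiv.addLeft c₀ d)) W =
      ∑ d : compatHom W, MM Φ (y + injW W ∘ₗ (compatRestr W d) ∘ₗ prW W) := by
    rw [← Finset.sum_congr rfl (fun d _ => key d)]
    symm
    rw [← Finset.sum_subset (Finset.subset_univ
      (Finset.univ.filter (fun d : B →ₗ[F] A => d ∈ compatHom W)))]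
    · refine Finset.sum_bij (fun d _ => d.1) ?_ ?_ ?_ ?_
      · intro d _
        exact Finset.mem_filter.2 ⟨Finset.mem_univ _, d.2⟩
      · intro d _ d' _ h
        exact Subtype.ext h
      · intro d hd
        exact ⟨⟨d, (Finset.mem_filter.1 hd).2⟩, Finset.mem_univ _, rfl⟩
      · intro d _
        rfl
    · intro d _ hd
      apply mmS_of_notMem
      intro h
      exact hd (Finset.mem_filter.2 ⟨Finset.mem_univ _, (hst d).1 h⟩)
  rw [h1]
  have h2 := sum_comp_surj (compatRestr W) (compatRestr_surj W)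
    (fun δ => MM Φ (y + injW W ∘ₗ δ ∘ₗ prW W))
  rw [h2]
  have hIH : ∑ δ : W.map (LinearMap.fst F B A) →ₗ[F] W.comap (LinearMap.inr F B A),
      MM Φ (y + injW W ∘ₗ δ ∘ₗ prW W) = 0 := by
    have hA1 : ∀ a ∈ W.comap (LinearMap.inr F B A), x₁ a ∈ W.comap (LinearMap.inr F B A) := by
      intro a ha
      have h3 := hc₀ ha
      rw [Submodule.mem_comap] at h3
      change ((0 : B), x₁ a) ∈ W
      have h4 : upper x₂ x₁ c₀ (LinearMap.inr F B A a) = ((0 : B), x₁ a) := by
        rw [upper_apply']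
        simp
      rw [← h4]
      exact h3
    have hB1 : ∀ b ∈ W.map (LinearMap.fst F B A), x₂ b ∈ W.map (LinearMap.fst F B A) := by
      rintro _ ⟨w, hw, rfl⟩
      exact ⟨_, hc₀ hw, rfl⟩
    refine IH _ _ _ (injW W) (prW W) ?_ ?_ ?_ (x₁.restrict hA1) y (x₂.restrict hB1) ?_ ?_ ?_ ?_ ?_
    · intro a b hab
      apply Subtype.ext
      exact congrArg (fun w : W => w.1.2) hab
    · rintro ⟨_, w, hw, rfl⟩
      exact ⟨⟨w, hw⟩, rfl⟩
    · intro w
      constructor
      · intro h0
        have h0' : w.1.1 = 0 := congrArg Subtype.val h0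
        refine ⟨⟨w.1.2, ?_⟩, ?_⟩
        · change ((0 : B), w.1.2) ∈ W
          rw [← h0']
          exact w.2
        · apply Subtype.ext
          exact Prod.ext h0'.symm rfl
      · rintro ⟨a, rfl⟩
        rfl
    · intro a
      apply Subtype.ext
      change upper x₂ x₁ c₀ (LinearMap.inr F B A a) = LinearMap.inr F B A (x₁ a)
      rw [upper_apply']
      simp
    · intro w
      rfl
    · have h3 : Nat.card W < Nat.card (B × A) := by
        have h4 : (W : Set (B × A)) ≠ Set.univ := fun h => hW (Submodule.ext (fun w => by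
          rw [← SetLike.mem_coe, h]
          simp))
        have h5 := Set.ncard_lt_ncard (Set.ssubset_univ_iff.2 h4) (Set.toFinite _)
        rw [Set.ncard_univ] at h5
        exact h5
      exact h3
    · exact (Submodule.nontrivial_iff_ne_bot).2 hA
    · exact (Submodule.nontrivial_iff_ne_bot).2 hB
  rw [hIH, mul_zero]

open Classical in
theorem sc_prod {Φ : IF.{u, v} F} (hΦ : Invar Φ) (hadd : Addi Φ) (x₂ : Module.End F B)
    (x₁ : Module.End F A) (IH : SCn Φ (Nat.card (B × A))) (hA : Nontrivial A)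
    (hB : Nontrivial B) :
    ∑ c : B →ₗ[F] A, MM Φ (upper x₂ x₁ c) = 0 := by
  rw [Finset.sum_congr rfl (fun c _ => MM_eq hΦ (upper x₂ x₁ c))]
  rw [Finset.sum_sub_distrib]
  have h1 : ∀ c : B →ₗ[F] A, Φ (B × A) (upper x₂ x₁ c) = Φ A x₁ + Φ B x₂ := by
    intro c
    refine hadd _ _ _ (LinearMap.inr F B A) (LinearMap.fst F B A) LinearMap.inr_injective
      LinearMap.fst_surjective ?_ x₁ _ x₂ ?_ ?_
    · intro v
      constructor
      · intro h
        exact ⟨v.2, Prod.ext (by simpa using h.symm) rfl⟩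
      · rintro ⟨a, rfl⟩
        rfl
    · intro a
      rw [upper_apply']
      simp
    · intro v
      rfl
  rw [Finset.sum_congr rfl (fun c _ => h1 c), Finset.sum_const, Finset.card_univ, nsmul_eq_mul]
  rw [sub_eq_zero]
  symm
  set P₁ : Submodule F (B × A) → Prop := fun W => ∀ w ∈ W, w.1 = 0 with hP₁
  set P₂ : Submodule F (B × A) → Prop := fun W => ∀ w ∈ W, w.1 = 0 → w.2 = 0 with hP₂
  have hP₁top : ∀ W, P₁ W → W ≠ ⊤ := by
    rintro W h rfl
    obtain ⟨b, hb⟩ := exists_ne (0 : B)
    exact hb (h (b, 0) Submodule.mem_top)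
  have hP₂top : ∀ W, P₂ W → W ≠ ⊤ := by
    rintro W h rfl
    obtain ⟨a, ha⟩ := exists_ne (0 : A)
    exact ha (h (0, a) Submodule.mem_top rfl)
  have hP₁₂ : ∀ W, P₁ W → P₂ W → W = ⊥ := by
    intro W h h'
    rw [Submodule.eq_bot_iff]
    intro w hw
    exact Prod.ext (h w hw) (h' w hw (h w hw))
  -- the splitting
  have hsplit : ∀ c : B →ₗ[F] A, ∑ W ∈ Finset.univ.filter
      (fun W : Submodule F (B × A) => W ≠ ⊤), mmS Φ (upper x₂ x₁ c) W =
      ∑ W ∈ Finset.univ.filter P₁, mmS Φ (upper x₂ x₁ c) W +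
      ∑ W ∈ Finset.univ.filter P₂, mmS Φ (upper x₂ x₁ c) W +
      ∑ W ∈ Finset.univ.filter (fun W => W ≠ ⊤ ∧ ¬ P₁ W ∧ ¬ P₂ W), mmS Φ (upper x₂ x₁ c) W := by
    intro c
    rw [← Finset.sum_filter_add_sum_filter_not (Finset.univ.filter
      (fun W : Submodule F (B × A) => W ≠ ⊤)) P₁, add_assoc]
    congr 1
    · apply Finset.sum_congr _ (fun _ _ => rfl)
      ext W
      simp only [Finset.mem_filter, Finset.mem_univ, true_and]
      exact ⟨fun h => h.2, fun h => ⟨hP₁top W h, h⟩⟩
    · rw [← Finset.sum_filter_add_sum_filter_not (Finset.filter (fun W => ¬ P₁ W)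
        (Finset.univ.filter (fun W : Submodule F (B × A) => W ≠ ⊤))) P₂]
      congr 1
      · rw [← Finset.sum_filter_add_sum_filter_not (Finset.univ.filter P₂) P₁]
        rw [Finset.sum_eq_zero (s := Finset.filter P₁ (Finset.univ.filter P₂)), zero_add]
        · apply Finset.sum_congr _ (fun _ _ => rfl)
          ext W
          simp only [Finset.mem_filter, Finset.mem_univ, true_and]
          exact ⟨fun h => ⟨h.2, h.1.2⟩, fun h => ⟨⟨hP₂top W h.1, h.2⟩, h.1⟩⟩
        · intro W hW
          simp only [Finset.mem_filter, Finset.mem_univ, true_and] at hW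
          rw [hP₁₂ W hW.2 hW.1]
          exact mmS_bot_zero hΦ hadd _
      · apply Finset.sum_congr _ (fun _ _ => rfl)
        ext W
        simp only [Finset.mem_filter, Finset.mem_univ, true_and]
        tauto
  rw [Finset.sum_congr rfl (fun c _ => hsplit c), Finset.sum_add_distrib,
    Finset.sum_add_distrib]
  rw [Finset.sum_congr rfl (fun c _ => sum_low hΦ x₂ x₁ c), Finset.sum_const, Finset.card_univ,
    nsmul_eq_mul, sum_compl hΦ x₂ x₁]
  have h3 : ∑ c : B →ₗ[F] A, ∑ W ∈ Finset.univ.filter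
      (fun W : Submodule F (B × A) => W ≠ ⊤ ∧ ¬ P₁ W ∧ ¬ P₂ W), mmS Φ (upper x₂ x₁ c) W = 0 := by
    rw [Finset.sum_comm]
    apply Finset.sum_eq_zero
    intro W hW
    simp only [Finset.mem_filter, Finset.mem_univ, true_and] at hW
    obtain ⟨hW1, hW2, hW3⟩ := hW
    apply sum_mixed x₂ x₁ IH W hW1
    · intro h
      apply hW3
      intro w hw h0
      have h4 : w.2 ∈ W.comap (LinearMap.inr F B A) := by
        change ((0 : B), w.2) ∈ W
        rw [← h0]
        exact hw
      rw [h, Submodule.mem_bot] at h4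
      exact h4
    · intro h
      apply hW2
      intro w hw
      have h4 : w.1 ∈ W.map (LinearMap.fst F B A) := ⟨w, hw, rfl⟩
      rw [h, Submodule.mem_bot] at h4
      exact h4
  rw [h3]
  ring

end prod

/-- strong cuspidality. -/
theorem sc_all {Φ : IF.{u, v} F} (hΦ : Invar Φ) (hadd : Addi Φ) (n : ℕ) : SCn Φ n := by
  induction n with
  | zero =>
    intro A V B _ _ _ _ _ _ _ _ _ j p hj hp hjp x₁ x x₂ h1 h2 hc
    exact absurd hc (Nat.not_lt_zero _)
  | succ n ih =>
    intro A V B _ _ _ _ _ _ _ _ _ j p hj hp hjp x₁ x x₂ h1 h2 hc hA hB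
    obtain ⟨s, hs⟩ := LinearMap.exists_rightInverse_of_surjective p (LinearMap.range_eq_top.2 hp)
    have hs' : ∀ b, p (s b) = b := fun b => LinearMap.congr_fun hs b
    have hpj : ∀ a, p (j a) = 0 := fun a => (hjp _).2 ⟨a, rfl⟩
    -- the isomorphism
    let e : (B × A) →ₗ[F] V := s.coprod j
    have he : Function.Bijective e := by
      constructor
      · rw [injective_iff_map_eq_zero]
        rintro ⟨b, a⟩ h
        have h' : s b + j a = 0 := h
        have hb : b = 0 := by
          have := congrArg p h'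
          rw [map_add, hs', hpj, add_zero, map_zero] at this
          exact this
        rw [hb, map_zero, zero_add] at h'
        have ha : a = 0 := hj (h'.trans (map_zero j).symm)
        rw [hb, ha]
        rfl
      · intro v
        have h3 : p (v - s (p v)) = 0 := by
          rw [map_sub, hs', sub_self]
        obtain ⟨a, ha⟩ := (hjp _).1 h3
        refine ⟨(p v, a), ?_⟩
        change s (p v) + j a = v
        rw [ha]
        abel
    let E : (B × A) ≃ₗ[F] V := LinearEquiv.ofBijective e he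
    have hE : ∀ w : B × A, E w = s w.1 + j w.2 := fun w => rfl
    -- the off-diagonal part of `x`
    have hc0 : ∃ c₀ : B →ₗ[F] A, ∀ b, x (s b) = s (x₂ b) + j (c₀ b) := by
      let f : B →ₗ[F] V := x ∘ₗ s - s ∘ₗ x₂
      have hf : ∀ b, f b ∈ LinearMap.range j := by
        intro b
        have h3 : p (f b) = 0 := by
          change p (x (s b) - s (x₂ b)) = 0
          rw [map_sub, h2, hs', hs', sub_self]
        exact (hjp _).1 h3
      let J : A ≃ₗ[F] LinearMap.range j := LinearEquiv.ofInjective j hj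
      refine ⟨J.symm.toLinearMap ∘ₗ (f.codRestrict _ hf), fun b => ?_⟩
      have h4 : j (J.symm (f.codRestrict _ hf b)) = f b := by
        have := congrArg Subtype.val (J.apply_symm_apply (f.codRestrict _ hf b))
        exact this
      change x (s b) = s (x₂ b) + j (J.symm (f.codRestrict _ hf b))
      rw [h4]
      change x (s b) = s (x₂ b) + (x (s b) - s (x₂ b))
      abel
    obtain ⟨c₀, hc₀⟩ := hc0
    have key : ∀ δ : B →ₗ[F] A, MM Φ (x + j ∘ₗ δ ∘ₗ p) = MM Φ (upper x₂ x₁ (c₀ + δ)) := by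
      intro δ
      symm
      apply MM_congr hΦ E
      intro w
      rw [hE, hE, upper_apply']
      change s (x₂ w.1) + j (x₁ w.2 + (c₀ w.1 + δ w.1)) =
        x (s w.1 + j w.2) + j (δ (p (s w.1 + j w.2)))
      rw [map_add p, hs', hpj, add_zero, map_add x, hc₀, h1, map_add j, map_add j]
      abel
    rw [Finset.sum_congr rfl (fun δ _ => key δ)]
    have hcard : Nat.card (B × A) = Nat.card V := Nat.card_congr E.toEquiv
    have h5 := sc_prod hΦ hadd x₂ x₁ (by
      intro A' V' B' _ _ _ _ _ _ _ _ _ j' p' hj' hp' hjp' x₁' x' x₂' h1' h2' hc' hA' hB'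
      exact ih A' V' B' j' p' hj' hp' hjp' x₁' x' x₂' h1' h2' (by omega) hA' hB') hA hB
    rw [← h5]
    exact Equiv.sum_comp (Equiv.addLeft c₀) (fun c => MM Φ (upper x₂ x₁ c))

instance instFiniteQuot {V : Type u} [AddCommGroup V] [Module F V] [Finite V]
    (W : Submodule F V) : Finite (V ⧸ W) :=
  Finite.of_surjective _ (Submodule.mkQ_surjective W)

/-- strong cuspidality, for a subspace of a space. -/
theorem sc_sub {Φ : IF.{u, v} F} (hΦ : Invar Φ) (hadd : Addi Φ) {V : Type u} [AddCommGroup V]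
    [Module F V] [Finite V] (W : Submodule F V) (hW : W ≠ ⊥) (hW' : W ≠ ⊤) (x : Module.End F V)
    (hx : W ∈ Module.End.invtSubmodule x) :
    ∑ δ : (V ⧸ W) →ₗ[F] W, MM Φ (x + W.subtype ∘ₗ δ ∘ₗ W.mkQ) = 0 := by
  refine sc_all hΦ hadd (Nat.card V + 1) W V (V ⧸ W) W.subtype W.mkQ
    (Submodule.subtype_injective _) (Submodule.mkQ_surjective _) ?_ (x.restrict (p := W) (q := W) hx) x
    (W.mapQ W x hx) (fun a => rfl) (fun v => rfl) (Nat.lt_succ_self _)
    (Submodule.nontrivial_iff_ne_bot.2 hW) (Submodule.Quotient.nontrivial_iff.2 hW')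
  intro v
  rw [Submodule.mkQ_apply, Submodule.Quotient.mk_eq_zero]
  constructor
  · intro h
    exact ⟨⟨v, h⟩, rfl⟩
  · rintro ⟨a, rfl⟩
    exact a.2

end Cfsg.Agent.H15C
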