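import Cfsg.Agent.H15Cusp.IP

/-!
# The support of the product of two Moebius inverses (helper15)
-/

set_option autoImplicit false
set_option linter.style.haveILetI false
set_option linter.unusedSectionVars false

namespace Cfsg.Agent.H15C

open Module Submodule Polynomial

universe u v

variable {F : Type v} [Field F] {V : Type u} [AddCommGroup V] [Module F V] [Finite V]

theorem aeval_stab (g : Module.End F V) (f : F[X]) (W : Submodule F V)
    (hW : W ∈ Module.End.invtSubmodule g) : ∀ v ∈ W, aeval g f v ∈ W := by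
  have hpow : ∀ n : ℕ, ∀ v ∈ W, (g ^ n) v ∈ W := by
    intro n
    induction n with
    | zero => intro v hv; exact hv
    | succ n ih =>
      intro v hv
      rw [pow_succ', Module.End.mul_apply]
      exact hW (ih v hv)
  intro v hv
  induction f using Polynomial.induction_on' with
  | add a b ha hb =>
    rw [map_add, LinearMap.add_apply]
    exact W.add_mem ha hb
  | monomial n a =>
    rw [aeval_monomial]
    exact W.smul_mem a (hpow n v hv)

theorem ker_stab (g : Module.End F V) (f : F[X]) :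
    LinearMap.ker (aeval g f) ∈ Module.End.invtSubmodule g := by
  intro v hv
  rw [Submodule.mem_comap, LinearMap.mem_ker]
  rw [LinearMap.mem_ker] at hv
  have h : aeval g f (g v) = g (aeval g f v) := by
    have h1 : aeval g (f * X) = aeval g (X * f) := by rw [mul_comm]
    rw [map_mul, map_mul, aeval_X] at h1
    exact LinearMap.congr_fun h1 v
  rw [h, hv, map_zero]

theorem range_stab (g : Module.End F V) (f : F[X]) :
    LinearMap.range (aeval g f) ∈ Module.End.invtSubmodule g := by
  rintro _ ⟨v, rfl⟩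
  refine ⟨g v, ?_⟩
  have h1 : aeval g (f * X) = aeval g (X * f) := by rw [mul_comm]
  rw [map_mul, map_mul, aeval_X] at h1
  exact LinearMap.congr_fun h1 v

open Classical in
theorem MM_coprime {Φ : IF.{u, v} F} (hΦ : Invar Φ) (hadd : Addi Φ) (g : Module.End F V)
    (f₁ f₂ : F[X]) (hcop : IsCoprime f₁ f₂) (h0 : aeval g (f₁ * f₂) = 0)
    (h1 : aeval g f₁ ≠ 0) (h2 : aeval g f₂ ≠ 0) : MM Φ g = 0 := by
  obtain ⟨a, b, hab⟩ := hcop
  set V₁ : Submodule F V := LinearMap.ker (aeval g f₁) with hV₁
  set V₂ : Submodule F V := LinearMap.ker (aeval g f₂) with hV₂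
  have hs₁ : V₁ ∈ Module.End.invtSubmodule g := ker_stab g f₁
  have hs₂ : V₂ ∈ Module.End.invtSubmodule g := ker_stab g f₂
  have hid : ∀ v, v = aeval g (a * f₁) v + aeval g (b * f₂) v := by
    intro v
    rw [← LinearMap.add_apply, ← map_add, hab, map_one]
    rfl
  have hk₂ : ∀ v, aeval g (a * f₁) v ∈ V₂ := by
    intro v
    rw [hV₂, LinearMap.mem_ker, ← Module.End.mul_apply, ← map_mul]
    have : f₂ * (a * f₁) = a * (f₁ * f₂) := by ring
    rw [this, map_mul, h0, mul_zero]
    rfl
  have hk₁ : ∀ v, aeval g (b * f₂) v ∈ V₁ := by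
    intro v
    rw [hV₁, LinearMap.mem_ker, ← Module.End.mul_apply, ← map_mul]
    have : f₁ * (b * f₂) = b * (f₁ * f₂) := by ring
    rw [this, map_mul, h0, mul_zero]
    rfl
  have hdisj : V₁ ⊓ V₂ = ⊥ := by
    rw [Submodule.eq_bot_iff]
    rintro v ⟨hv1, hv2⟩
    rw [SetLike.mem_coe, LinearMap.mem_ker] at hv1 hv2
    rw [hid v, map_mul, map_mul, Module.End.mul_apply, Module.End.mul_apply, hv1, hv2]
    simp
  have hstab_inf : ∀ W W' : Submodule F V, W ∈ Module.End.invtSubmodule g →
      W' ∈ Module.End.invtSubmodule g → W ⊓ W' ∈ Module.End.invtSubmodule g := by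
    intro W W' hW hW' v hv
    exact ⟨hW hv.1, hW' hv.2⟩
  let U₁ : StabLat g := ⟨V₁, hs₁⟩
  let U₂ : StabLat g := ⟨V₂, hs₂⟩
  let φ : StabLat g → ℂ := fun W => Φ W.1 (g.restrict (p := W.1) (q := W.1) W.2)
  have hbot : ∀ W : StabLat g, W.1 = ⊥ → minv φ W = 0 := by
    intro W hW
    have h3 : minv φ W = mm Φ g W := rfl
    rw [h3, mm_restrict hΦ]
    haveI : Subsingleton W.1 := by
      rw [hW]
      infer_instance
    rw [MM_subsingleton hΦ, hadd.zero]
  let ψ : StabLat g → StabLat g → ℂ := fun U W => if W ≤ U then minv φ W else 0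
  have hψ : ∀ U W : StabLat g, ∑ y ∈ Finset.univ.filter (· ≤ W), ψ U y =
      φ ⟨W.1 ⊓ U.1, hstab_inf _ _ W.2 U.2⟩ := by
    intro U W
    rw [← sum_minv φ ⟨W.1 ⊓ U.1, hstab_inf _ _ W.2 U.2⟩]
    rw [← Finset.sum_filter, Finset.filter_filter]
    apply Finset.sum_congr _ (fun _ _ => rfl)
    ext y
    simp only [Finset.mem_filter, Finset.mem_univ, true_and]
    constructor
    · rintro ⟨h3, h4⟩
      exact (le_inf h3 h4 : y.1 ≤ W.1 ⊓ U.1)
    · intro h3
      have h4 : y.1 ≤ W.1 ⊓ U.1 := h3
      exact ⟨h4.trans inf_le_left, h4.trans inf_le_right⟩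
  have hmain : ∀ W : StabLat g, ψ U₁ W + ψ U₂ W = minv φ W := by
    intro W
    apply minv_unique (ψ := fun W => ψ U₁ W + ψ U₂ W)
    intro W
    rw [Finset.sum_add_distrib, hψ, hψ]
    symm
    have hsum : W.1 = (W.1 ⊓ V₁) ⊔ (W.1 ⊓ V₂) := by
      apply le_antisymm
      · intro w hw
        rw [hid w, add_comm]
        exact Submodule.add_mem_sup ⟨aeval_stab g _ _ W.2 _ hw, hk₁ w⟩
          ⟨aeval_stab g _ _ W.2 _ hw, hk₂ w⟩
      · exact sup_le inf_le_left inf_le_left
    exact Addi.sup hΦ hadd g (W.1 ⊓ V₁) (W.1 ⊓ V₂) (hstab_inf _ _ W.2 hs₁)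
      (hstab_inf _ _ W.2 hs₂) (by
        rw [eq_bot_iff, ← hdisj]
        exact inf_le_inf inf_le_right inf_le_right) W.1 hsum W.2
  have h5 := hmain ⊤
  have h6 : ¬ (⊤ : StabLat g) ≤ U₁ := by
    intro h
    apply h1
    have h' : (⊤ : Submodule F V) ≤ V₁ := h
    exact LinearMap.ker_eq_top.1 (top_le_iff.1 h')
  have h7 : ¬ (⊤ : StabLat g) ≤ U₂ := by
    intro h
    apply h2
    have h' : (⊤ : Submodule F V) ≤ V₂ := h
    exact LinearMap.ker_eq_top.1 (top_le_iff.1 h')
  have h8 : ψ U₁ ⊤ = 0 := if_neg h6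
  have h9 : ψ U₂ ⊤ = 0 := if_neg h7
  rw [h8, h9, add_zero] at h5
  exact h5.symm

open Classical in
theorem MM_dz_nil (g : Module.End F V) (f : F[X]) (k : ℕ) (h1 : aeval g f ≠ 0)
    (h2 : (aeval g f) ^ k = 0) : MM (dz F) g = 0 := by
  have hsp : ∀ x : StabLat g, x ≠ ⊥ → ∀ [DecidablePred (· ≤ x)],
      ∑ y ∈ Finset.univ.filter (· ≤ x), mm (dz F) g y = 0 := by
    intro x hx _
    have h3 := sum_minv (fun W : StabLat g => dz F W.1 (g.restrict (p := W.1) (q := W.1) W.2)) x
    have h4 : dz F x.1 (g.restrict (p := x.1) (q := x.1) x.2) = 0 := by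
      rw [dz, if_neg]
      intro hsub
      apply hx
      apply Subtype.ext
      exact (Submodule.subsingleton_iff_eq_bot).1 hsub
    rw [h4] at h3
    rw [← h3]
    apply Finset.sum_congr _ (fun _ _ => rfl)
    ext y
    simp
  let a : StabLat g := ⟨LinearMap.range (aeval g f), range_stab g f⟩
  have ha : a ≠ ⊥ := by
    intro h
    apply h1
    have h' : LinearMap.range (aeval g f) = ⊥ := congrArg Subtype.val h
    exact LinearMap.range_eq_bot.1 h'
  have h5 := weisner hsp ha ⊤ le_top
  have h6 : Finset.univ.filter (fun y : StabLat g => y ⊔ a = ⊤) = {⊤} := by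
    ext y
    simp only [Finset.mem_filter, Finset.mem_univ, true_and, Finset.mem_singleton]
    constructor
    · intro hy
      have hy' : y.1 ⊔ LinearMap.range (aeval g f) = ⊤ := congrArg Subtype.val hy
      have h7 : ∀ j : ℕ, ∀ v : V, ∃ w ∈ y.1, ∃ u : V, v = w + ((aeval g f) ^ j) u := by
        intro j
        induction j with
        | zero =>
          intro v
          exact ⟨0, y.1.zero_mem, v, by simp⟩
        | succ j ih =>
          intro v
          obtain ⟨w, hw, u, rfl⟩ := ih v
          have hu : u ∈ y.1 ⊔ LinearMap.range (aeval g f) := by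
            rw [hy']
            exact Submodule.mem_top
          rw [Submodule.mem_sup] at hu
          obtain ⟨w', hw', _, ⟨u', rfl⟩, rfl⟩ := hu
          refine ⟨w + ((aeval g f) ^ j) w', ?_, u', ?_⟩
          · apply y.1.add_mem hw
            rw [← map_pow]
            exact aeval_stab g _ _ y.2 _ hw'
          · rw [map_add, pow_succ, Module.End.mul_apply, add_assoc]
      apply Subtype.ext
      change y.1 = ⊤
      rw [eq_top_iff]
      intro v _
      obtain ⟨w, hw, u, rfl⟩ := h7 k v
      rw [h2, LinearMap.zero_apply, add_zero]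
      exact hw
    · rintro rfl
      exact top_sup_eq _
  rw [h6, Finset.sum_singleton] at h5
  exact h5

theorem minpoly_irred_of_ne {Φ : IF.{u, v} F} (hΦ : Invar Φ) (hadd : Addi Φ) [Nontrivial V]
    (g : Module.End F V) (h1 : MM Φ g ≠ 0) (h2 : MM (dz F) g ≠ 0) :
    Irreducible (minpoly F g) := by
  haveI : Module.Finite F V := Module.Finite.of_finite
  have hint : IsIntegral F g := Algebra.IsIntegral.isIntegral g
  set m := minpoly F g with hm
  have hm0 : m ≠ 0 := minpoly.ne_zero hint
  have hmu : ¬ IsUnit m := minpoly.not_isUnit F g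
  obtain ⟨q, hq, hqm⟩ := WfDvdMonoid.exists_irreducible_factor hmu hm0
  obtain ⟨k, r, hr, hkr⟩ := WfDvdMonoid.max_power_factor hm0 hq
  have hk : k ≠ 0 := by
    rintro rfl
    apply hr
    rw [hkr, pow_zero, one_mul] at hqm
    exact hqm
  have hcop : IsCoprime (q ^ k) r := by
    apply IsCoprime.pow_left
    exact (hq.coprime_iff_not_dvd).2 hr
  have hae : aeval g (q ^ k * r) = 0 := by
    rw [← hkr]
    exact minpoly.aeval F g
  have hr0 : r ≠ 0 := by
    rintro rfl
    exact hr (dvd_zero q)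
  by_cases hru : IsUnit r
  · -- `m` is associated to `q ^ k`
    have hqk : aeval g (q ^ k) = 0 := by
      obtain ⟨s, hs⟩ := hru.exists_right_inv
      have : q ^ k = (q ^ k * r) * s := by
        rw [mul_assoc, hs, mul_one]
      rw [this, map_mul, hae, zero_mul]
    have hq1 : aeval g q = 0 := by
      by_contra hne
      apply h2
      exact MM_dz_nil g q k hne (by rw [← map_pow]; exact hqk)
    have hdvd : m ∣ q := minpoly.dvd F g hq1
    exact (hq.dvd_iff.1 hdvd).resolve_left hmu |>.irreducible_iff.1 hq |> fun h => h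
  · exfalso
    apply h1
    refine MM_coprime hΦ hadd g (q ^ k) r hcop hae ?_ ?_
    · intro h0
      have hdvd : m ∣ q ^ k := minpoly.dvd F g h0
      rw [hkr] at hdvd
      apply hru
      have h3 : q ^ k * r ∣ q ^ k * 1 := by
        rw [mul_one]
        exact hdvd
      exact isUnit_of_dvd_one ((mul_dvd_mul_iff_left (pow_ne_zero k hq.ne_zero)).1 h3)
    · intro h0
      have hdvd : m ∣ r := minpoly.dvd F g h0
      apply hr
      rw [hkr] at hdvd
      exact ((dvd_pow_self q hk).trans (dvd_mul_right _ _)).trans hdvd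

end Cfsg.Agent.H15C
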