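import Cfsg.Agent.H15Cusp.Eval2
import Cfsg.Agent.H15Cusp.Fix

/-!
# Values at the elements of the anisotropic torus (helper15)
-/

set_option autoImplicit false
set_option linter.style.haveILetI false
set_option linter.unusedSectionVars false

namespace Cfsg.Agent.H15C

open Module Submodule Polynomial
open scoped IntermediateField

universe u

variable {F : Type u} [Field F] [Finite F] {L : Type u} [Field L] [Finite L] [Algebra F L]

/-- multiplication by an element. -/
noncomputable def ml (F : Type u) [Field F] {L : Type u} [Field L] [Algebra F L] (t : L) :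
    Module.End F L := Algebra.lsmul F F L t

theorem ml_apply (t y : L) : ml F t y = t * y := rfl

theorem fieldLike_of (t : L) :
    FieldLike (F := F) F⟮t⟯ (ml F t) (IntermediateField.AdjoinSimple.gen F t) := by
  constructor
  · intro y
    rw [ml_apply, Algebra.smul_def]
    rfl
  · intro c
    have h1 : (c : L) ∈ Algebra.adjoin F {t} := by
      have h2 := c.2
      rw [← IntermediateField.mem_toSubalgebra,
        IntermediateField.adjoin_simple_toSubalgebra_of_isAlgebraic
          (Algebra.IsAlgebraic.isAlgebraic t)] at h2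
      exact h2
    rw [Algebra.adjoin_singleton_eq_range_aeval] at h1
    obtain ⟨f, hf⟩ := h1
    refine ⟨f, fun y => ?_⟩
    have h3 : aeval (ml F t) f = ml F (aeval t f) := by
      have := Polynomial.aeval_algHom_apply (Algebra.lsmul F F L) t f
      exact this
    rw [h3, ml_apply]
    have hf' : aeval t f = (c : L) := hf
    rw [hf', Algebra.smul_def]
    rfl

variable {K : Type u} [Field K] [Finite K] [Algebra F K] [Algebra L K] [IsScalarTower F L K]

noncomputable instance instFintypeGal : Fintype (L ≃ₐ[F] L) := Fintype.ofFinite _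

open Classical in
/-- the conjugates of `t`. -/
noncomputable def orb (F : Type u) [Field F] {L : Type u} [Field L] [Finite L] [Algebra F L]
    (t : L) : Finset L :=
  letI : Fintype L := Fintype.ofFinite L
  Finset.univ.filter (fun y => y ∈ MulAction.orbit (L ≃ₐ[F] L) t)

theorem mem_orb (t y : L) : y ∈ orb F t ↔ ∃ γ : L ≃ₐ[F] L, γ t = y := by
  classical
  unfold orb
  rw [Finset.mem_filter, MulAction.mem_orbit_iff]
  simp

theorem orb_eq (t : L) : ((minpoly F t).map (algebraMap F L)).roots = (orb F t).val := by
  classical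
  have hint : IsIntegral F t := Algebra.IsIntegral.isIntegral t
  have hsep : (minpoly F t).Separable := Algebra.IsSeparable.isSeparable F t
  rw [Multiset.Nodup.ext (nodup_roots hsep.map) (orb F t).nodup]
  intro a
  rw [Finset.mem_val, mem_orb, mem_roots (Polynomial.map_monic_ne_zero (minpoly.monic hint)),
    IsRoot.def, eval_map_algebraMap, ← isConjRoot_iff_aeval_eq_zero hint,
    isConjRoot_iff_exists_algEquiv]
  constructor
  · rintro ⟨σ, hσ⟩
    exact ⟨σ.symm, by rw [← hσ, AlgEquiv.symm_apply_apply]⟩
  · rintro ⟨σ, hσ⟩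
    exact ⟨σ.symm, by rw [← hσ, AlgEquiv.symm_apply_apply]⟩

theorem card_orb (t : L) : (orb F t).card = finrank F F⟮t⟯ := by
  have hint : IsIntegral F t := Algebra.IsIntegral.isIntegral t
  rw [IntermediateField.adjoin.finrank hint, Finset.card_def, ← orb_eq]
  have h1 : ((minpoly F t).map (algebraMap F L)).Splits := Normal.splits' t
  rw [← h1.natDegree_eq_card_roots, natDegree_map]

theorem beta_adj (θ : K → ℂ) (t : L) :
    beta F K θ F⟮t⟯ (Algebra.lsmul F F F⟮t⟯ (IntermediateField.AdjoinSimple.gen F t)) =
      ∑ y ∈ orb F t, θ (algebraMap L K y) := by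
  classical
  have hint : IsIntegral F t := Algebra.IsIntegral.isIntegral t
  let pb := IntermediateField.adjoin.powerBasis hint
  have h0 : (Algebra.lsmul F F F⟮t⟯ (IntermediateField.AdjoinSimple.gen F t)).charpoly =
      minpoly F t := by
    have h1 := charpoly_leftMulMatrix pb
    have h2 : pb.gen = IntermediateField.AdjoinSimple.gen F t := rfl
    rw [← LinearMap.charpoly_toMatrix _ pb.basis]
    rw [h2] at h1
    have h3 : minpoly F (IntermediateField.AdjoinSimple.gen F t) = minpoly F t :=
      IntermediateField.minpoly_gen F t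
    rw [← h3, ← h1]
    rfl
  haveI : Module.Finite F F⟮t⟯ := Module.Finite.of_finite
  rw [beta_eq, h0]
  have h4 : (minpoly F t).map (algebraMap F K) =
      ((minpoly F t).map (algebraMap F L)).map (algebraMap L K) := by
    rw [Polynomial.map_map, ← IsScalarTower.algebraMap_eq]
  have h5 : ((minpoly F t).map (algebraMap F L)).Splits := Normal.splits' t
  rw [h4, h5.roots_map, orb_eq, Multiset.map_map]
  rfl

theorem card_stab (t : L) :
    Nat.card (MulAction.stabilizer (L ≃ₐ[F] L) t) = finrank F⟮t⟯ L := by
  classical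
  haveI : Module.Finite F L := Module.Finite.of_finite
  letI : Fintype L := Fintype.ofFinite L
  have h1 := sum_orbit (G := L ≃ₐ[F] L) t (fun _ => (1 : ℂ))
  have h2 : (Finset.univ.filter (fun y => y ∈ MulAction.orbit (L ≃ₐ[F] L) t)).card =
      (orb F t).card := by
    congr 1
  simp only [Finset.sum_const, nsmul_eq_mul, mul_one, Finset.card_univ] at h1
  rw [h2, card_orb, ← Nat.card_eq_fintype_card, IsGalois.card_aut_eq_finrank,
    ← Module.finrank_mul_finrank F F⟮t⟯ L, mul_comm (finrank F F⟮t⟯)] at h1
  have h3 : finrank F⟮t⟯ L * finrank F F⟮t⟯ =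
      Nat.card (MulAction.stabilizer (L ≃ₐ[F] L) t) * finrank F F⟮t⟯ := by
    exact_mod_cast h1
  haveI : Module.Finite F F⟮t⟯ := Module.Finite.of_finite
  exact (Nat.eq_of_mul_eq_mul_right Module.finrank_pos h3).symm

theorem ml_gen (t : L) :
    Algebra.lsmul F F L (IntermediateField.AdjoinSimple.gen F t) = ml F t := by
  ext y
  rfl

theorem beta_gal (θ : K → ℂ) (t : L) :
    beta F K θ L (ml F t) = ∑ γ : L ≃ₐ[F] L, θ (algebraMap L K (γ t)) := by
  classical
  letI : Fintype L := Fintype.ofFinite L
  have h1 := phi_scalar (beta_invar θ) (beta_addi (F := F) (K := K) θ)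
    (IntermediateField.AdjoinSimple.gen F t) (finrank F⟮t⟯ L) L rfl
  rw [ml_gen, beta_adj] at h1
  rw [h1]
  have h2 := sum_orbit (G := L ≃ₐ[F] L) t (fun y => θ (algebraMap L K y))
  have h3 : ∑ γ : L ≃ₐ[F] L, θ (algebraMap L K (γ t)) =
      ∑ γ : L ≃ₐ[F] L, θ (algebraMap L K (γ • t)) := rfl
  rw [h3, h2, card_stab, mul_comm]
  congr 1

/-- the values on invariant subspaces. -/
theorem beta_sub (θ : K → ℂ) (t : L) (W : Submodule F⟮t⟯ L) :
    beta F K θ (W.restrictScalars F) ((ml F t).restrict (p := W.restrictScalars F)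
      (q := W.restrictScalars F) ((fieldLike_of t).restr W)) =
      (∑ y ∈ orb F t, θ (algebraMap L K y)) * (finrank F⟮t⟯ W : ℂ) := by
  have h1 := phi_scalar (beta_invar θ) (beta_addi (F := F) (K := K) θ)
    (IntermediateField.AdjoinSimple.gen F t) (finrank F⟮t⟯ W) (W.restrictScalars F) rfl
  rw [beta_adj] at h1
  rw [← h1]
  congr 1

end Cfsg.Agent.H15C
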